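/-
The extended 2-layer.
-/
import Cfsg.Agent.H5.Balance4

set_option autoImplicit false
set_option linter.unusedSectionVars false

namespace H5

open Subgroup Cfsg
open scoped commutatorElement IsMulCommutative

variable {G : Type*} [Group G] [Finite G]

theorem sup_oppOf_centralizer_eq {p : ℕ} [Fact p.Prime] {K T T' : Subgroup G}
    (hT : IsPiHallOf {p} T (plOf p K ⊔ ppOf p K)) (hT' : IsPiHallOf {p} T' (plOf p K ⊔ ppOf p K)) :
    oppOf p (K ⊓ centralizer (T' : Set G)) ≤
      plOf p K ⊔ oppOf p K ⊔ oppOf p (K ⊓ centralizer (T : Set G)) := by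
  obtain ⟨n, hn, rfl⟩ := H1.sylowOf_conj hT hT'
  have hNK : plOf p K ⊔ ppOf p K ≤ K := sup_le (plOf_le p K) (ppOf_le p K)
  rw [smul_eq_cj, ← cj_centralizer, ← cj_eq_of_mem (hNK hn), ← cj_inf, ← cj_oppOf,
    cj_eq_of_mem (hNK hn)]
  set Y := oppOf p (K ⊓ centralizer (T : Set G))
  have hYK : Y ≤ K := (oppOf_le p _).trans inf_le_left
  refine (cj_le_ncl Y hn).trans ?_
  rw [ncl_eq_sup_commutator]
  refine sup_le le_sup_right (le_trans ?_ le_sup_left)
  have h1 : K ≤ normalizer ((plOf p K ⊔ oppOf p K : Subgroup G) : Set G) :=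
    le_normalizer_sup (self_le_normalizer_plOf K) (self_le_normalizer_oppOf p K)
  refine commutator_sup_right_le ((plOf_le p K).trans h1) ((ppOf_le p K).trans h1) ?_ ?_
  · exact (commutator_le_right_of_le_normalizer (hYK.trans (self_le_normalizer_plOf K))).trans
      le_sup_left
  · rw [commutator_comm]
    exact ((commutator_mono le_rfl le_sup_right).trans (commutator_ppOf_le
      (H1.IsPiHallOf.isPGroup hT) ((hT.1.trans hNK).trans le_normalizer))).trans le_sup_right

theorem extendedTwoLayer_eq {T : Subgroup G}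
    (hT : IsPiHallOf {2} T (pLayer 2 G ⊔ pPrimePCore 2 G)) :
    extendedTwoLayer G = pLayer 2 G ⊔ oddCore G ⊔ oppOf 2 (centralizer (T : Set G)) := by
  have : Fact (Nat.Prime 2) := ⟨Nat.prime_two⟩
  unfold extendedTwoLayer
  apply le_antisymm
  · refine sup_le le_sup_left (iSup_le fun T' => ?_)
    have hT' := H1.isPiHallOf_sylow T'
    generalize (T' : Subgroup _).map (pLayer 2 G ⊔ pPrimePCore 2 G).subtype = R at hT' ⊢
    rw [← plOf_top, ← ppOf_top] at hT hT'
    have := sup_oppOf_centralizer_eq hT hT'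
    rwa [top_inf_eq, top_inf_eq, plOf_top, oppOf_top] at this
  · obtain ⟨S, rfl⟩ := H1.exists_sylow_of_isPiHallOf hT
    refine sup_le_sup_left ?_ _
    intro x hx
    exact mem_iSup_of_mem S hx

theorem extendedTwoLayer_normal : (extendedTwoLayer G).Normal := by
  have : Fact (Nat.Prime 2) := ⟨Nat.prime_two⟩
  have := pLayer_normal (G := G) (p := 2)
  obtain ⟨T, hT⟩ := H1.exists_sylowOf 2 (pLayer 2 G ⊔ pPrimePCore 2 G)
  rw [normal_iff_top_le_normalizer]
  intro g _
  have hT' := H1.IsPiHallOf.conj_of_mem hT (g := g) (by rw [normalizer_eq_top]; trivial)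
  rw [← cj_eq_self_iff]
  conv_rhs => rw [extendedTwoLayer_eq hT']
  rw [extendedTwoLayer_eq hT, cj_sup, cj_sup, cj_eq_of_normal, cj_eq_of_normal, cj_oppOf,
    cj_centralizer, smul_eq_cj]

end H5
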