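/-
Core balance for the prime `2`.
-/
import Cfsg.Agent.H5.LBal
import Cfsg.Agent.H5.ExtLayer

set_option autoImplicit false
set_option linter.unusedSectionVars false

namespace H5

open Subgroup Cfsg
open scoped commutatorElement IsMulCommutative Pointwise

local notation "𝒩(" X ")" => Subgroup.normalizer (SetLike.coe X)
local notation "𝒞(" X ")" => Subgroup.centralizer (SetLike.coe X)
local notation "𝒞₁(" a ")" => Subgroup.centralizer (Singleton.singleton a : Set _)

variable {G : Type*} [Group G] [Finite G]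

theorem le_oppOf_of_centralizes_sylow {F U C D : Subgroup G} (hO : oppOf 2 F = ⊥)
    (hU : IsPiHallOf {2} U F) (hCF : C ≤ 𝒩(F)) (hCU : C ≤ 𝒞(U)) (hZ : C ⊓ 𝒞(F) ≤ U)
    (hD : D ≤ C) (hc : (Nat.card D).Coprime 2) : D ≤ oppOf 2 C := by
  have hUp := IsPiHallOf.isPGroup' hU
  obtain ⟨S, rfl⟩ := H1.exists_sylow_of_isPiHallOf hU
  let A : Subgroup (MulAut F) :=
    { carrier := {φ | ∀ s : F, s ∈ S → φ s = s}
      one_mem' := fun _ _ => rfl
      mul_mem' := fun {a b} ha hb s hs => by rw [MulAut.mul_apply, hb s hs, ha s hs]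
      inv_mem' := fun {a} ha s hs => by
        rw [MulAut.inv_apply, MulEquiv.symm_apply_eq, ha s hs] }
  obtain ⟨h1, hs⟩ := Cfsg.Agent.S0227.result (fun N hN ho => by
    have : N.map F.subtype ≤ oppOf 2 F := by
      refine le_oppOf (map_subtype_le _) ?_ (by
        rw [card_map_of_inj F.subtype_injective]; exact Nat.coprime_two_right.2 ho)
      have := le_normalizer_map' F.subtype (le_normalizer_of_normal' ⊤ N)
      rwa [map_subtype_top] at this
    rw [hO, le_bot_iff, map_eq_bot_iff_of_injective _ F.subtype_injective] at this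
    exact this) S A (fun _ => Iff.rfl)
  obtain ⟨T⟩ : Nonempty (Sylow 2 A) := inferInstance
  obtain ⟨-, N, hN, hT⟩ := h1 T
  let ψ : C →* A := (F.normalizerMonoidHom.comp (inclusion hCF)).codRestrict A fun c s hs => by
    apply Subtype.ext
    change (c : G) * s * (c : G)⁻¹ = s
    rw [mul_inv_eq_iff_eq_mul]
    exact (hCU c.2 s ⟨s, hs, rfl⟩).symm
  have hk : ∀ c ∈ ψ.ker, (c : G) ∈ (S : Subgroup F).map F.subtype := fun c hc => by
    refine hZ ⟨c.2, fun f hf => ?_⟩
    have := congrArg (fun a : A => (((a : MulAut F) ⟨f, hf⟩ : F) : G)) hc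
    exact (mul_inv_eq_iff_eq_mul.1 this).symm
  have hkp : IsPGroup 2 ψ.ker := by
    rw [← isPGroup_map_iff C.subtype_injective]
    refine hUp.to_le ?_
    rintro _ ⟨c, hc, rfl⟩
    exact hk c hc
  have hNc : ¬ 2 ∣ Nat.card N := hT.index_eq_card ▸ T.not_dvd_index
  obtain ⟨D, rfl⟩ := exists_map_subtype hD
  rw [card_map_of_inj C.subtype_injective] at hc
  have h2 : D ≤ N.comap ψ := by
    rw [← map_le_iff_le_comap]
    refine H1.le_of_coprime_index ?_
    obtain ⟨n, hn⟩ := IsPGroup.iff_card.1 T.isPGroup'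
    rw [hT.symm.index_eq_card, hn]
    exact (hc.coprime_dvd_left (card_map_dvd _ _)).pow_right n
  have h3 : IsPiHallOf {2} ψ.ker (N.comap ψ) := by
    refine H1.isPiHallOf_singleton_iff.2 ⟨ker_le_comap _ _, hkp, ?_⟩
    rw [relIndex_ker]
    exact fun h => hNc (h.trans (card_dvd_of_le (map_comap_le _ _)))
  have h4 := le_oppOf_of_sylow (isSolvable_of_map ψ inferInstance
    (isSolvable_of_isPGroup (hkp.to_le inf_le_right))) h3 h2 hc
    (le_normalizer_of_le_centralizer fun c hc d hd => Subtype.ext (hCU d.2 c (hk c hc)).symm)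
  have h5 := h4.trans ((SN.of_normal le_top (le_normalizer_of_normal' ⊤ _)).oppOf_le 2)
  have := map_mono (f := C.subtype) h5
  rwa [map_oppOf_of_injective C.subtype_injective, map_subtype_top] at this

theorem odd_le_oppOf_centralizer_sylow {T D : Subgroup G}
    (hT : IsPiHallOf {2} T (plOf 2 ⊤ ⊔ ppOf 2 ⊤)) (hD : D ≤ 𝒞(T)) (hc : (Nat.card D).Coprime 2) :
    D ≤ oppOf 2 ⊤ ⊔ oppOf 2 𝒞(T) := by
  set f := QuotientGroup.mk' (pPrimeCore 2 G) with hf
  have hk := coprime_inf_ker_mk' (G := G) 2 ⊤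
  have hO := oppOf_map_mk' (G := G) 2
  have ht : (⊤ : Subgroup G).map f = ⊤ := map_top_of_surjective f (QuotientGroup.mk'_surjective _)
  have hTp := IsPiHallOf.isPGroup' hT
  have h1 := H1.IsPiHallOf.map hT f
  rw [Subgroup.map_sup, map_plOf_of_coprime_ker f _ hk, map_ppOf_of_coprime_ker f _ _ hk, ht,
    plOf_eq_layerOf hO, ppOf_eq_opOf hO, ← fitOf_eq_opOf hO, ← fstarOf_eq] at h1
  have h2 := le_oppOf_of_centralizes_sylow (C := ⊤ ⊓ 𝒞(T.map f)) (D := D.map f)
    (le_bot_iff.1 (hO ▸ (sn_fstarOf ⊤).oppOf_le 2)) h1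
    (le_top.trans (self_le_normalizer_fstarOf ⊤)) inf_le_right (by
      have h3 : ⊤ ⊓ 𝒞(T.map f) ⊓ 𝒞(fstarOf ⊤) ≤ fitOf ⊤ :=
        le_fitOf_of_le_centralizer_fstarOf le_top inf_le_right
      refine h3.trans (H1.IsPiHallOf.le_of_normalizes h1 (fitOf_le_fstarOf ⊤)
        (le_top.trans (self_le_normalizer_fitOf ⊤)) (H1.isPiNat_card_singleton_iff.2 ?_))
      rw [fitOf_eq_opOf hO]; exact isPGroup_opOf _ _)
    (le_inf le_top ((map_mono hD).trans (map_centralizer_le f T)))
    (hc.coprime_dvd_left (card_map_dvd _ _))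
  rw [← ht, ← map_oppOf_inf_centralizer f hTp (le_top.trans le_normalizer) hk, top_inf_eq] at h2
  have := le_sup_ker_of_map_le h2
  rwa [hf, QuotientGroup.ker_mk', ← oppOf_top, sup_comm] at this

theorem core_balance_top {R : Subgroup G} (hR : IsPGroup 2 R) :
    oppOf 2 𝒞(R) ≤ extendedTwoLayer G := by
  set F := plOf 2 (⊤ : Subgroup G) ⊔ ppOf 2 ⊤ with hF
  have hFn : ∀ X : Subgroup G, X ≤ 𝒩(F) := fun X => le_top.trans
    (le_normalizer_sup (self_le_normalizer_plOf ⊤) (self_le_normalizer_ppOf 2 ⊤))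
  set N := plOf 2 (⊤ : Subgroup G) ⊔ oppOf 2 ⊤ with hN
  have hNn : ∀ X : Subgroup G, X ≤ 𝒩(N) := fun X => le_top.trans
    (le_normalizer_sup (self_le_normalizer_plOf ⊤) (self_le_normalizer_oppOf 2 ⊤))
  obtain ⟨T, hT, hRT⟩ := exists_sylowOf_ge hR (le_sup_left : R ≤ R ⊔ F)
  have hTp := IsPiHallOf.isPGroup' hT
  have hU := H1.IsPiHallOf.inf hT le_sup_right (hFn T)
  have hRF : R ⊔ F ≤ N ⊔ T := by
    refine sup_le (hRT.trans le_sup_right) (sup_le (le_sup_left.trans le_sup_left) ?_)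
    rw [← sylow_sup_oppOf (H1.IsPiHallOf.inf hT (le_sup_right.trans le_sup_right)
      (le_top.trans (self_le_normalizer_ppOf 2 ⊤)))]
    exact sup_le (inf_le_left.trans le_sup_right) (le_sup_right.trans le_sup_left)
  have e := extendedTwoLayer_eq (G := G) (T := T ⊓ F) (by rwa [← plOf_top, ← ppOf_top])
  have hNE : N ≤ extendedTwoLayer G := by
    rw [e, hN, plOf_top, oppOf_top]; exact le_sup_left
  have key : ∀ P : Subgroup G, R ≤ P → P ≤ T → oppOf 2 𝒞(P) ≤ extendedTwoLayer G := by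
    intro P
    induction P using subgroup_gt_induction with
    | h P ih =>
    intro h1 h2
    have hc := coprime_card_oppOf 2 𝒞(P)
    by_cases hPT : P = T
    · refine (odd_le_oppOf_centralizer_sylow hU ((oppOf_le _ _).trans
        (centralizer_anti (hPT ▸ inf_le_left))) hc).trans (sup_le (le_sup_right.trans hNE) ?_)
      rw [e]; exact le_sup_right
    have hlt : P < 𝒩(P) ⊓ T := lt_of_le_of_ne (le_inf le_normalizer h2) fun e =>
      not_normalizer_inf_le hTp h2 hPT e.ge
    have hQ : IsPGroup 2 (𝒩(P) ⊓ T : Subgroup G) := hTp.to_le inf_le_right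
    have hn : 𝒩(P) ⊓ T ≤ 𝒩(oppOf 2 𝒞(P)) :=
      le_normalizer_oppOf 2 (le_normalizer_centralizer inf_le_left)
    rw [← H1.commutator_sup_centralizer hn (coprime_card_of_isPGroup hQ hc)
      (Or.inl (isSolvable_of_isPGroup hQ))]
    refine sup_le (le_trans ?_ hNE) (le_trans ?_ (ih _ hlt (h1.trans hlt.le) inf_le_right))
    · refine (pPerf_of_coprime (coprime_of_le hc (commutator_le_left_of_le_normalizer hn))).le_of_le_sup
        hTp (hNn T) (le_trans ?_ hRF)
      exact (commutator_mono le_rfl (inf_le_right.trans hT.1)).trans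
        (commutator_le_right_of_le_normalizer (le_normalizer_sup ((oppOf_le _ _).trans
          ((centralizer_anti h1).trans (centralizer_le_normalizer _))) (hFn _)))
    · exact oppOf_inf_le 2 (centralizer_anti hlt.le)
  exact key R le_rfl hRT

/-- The extended `2`-layer of a subgroup. -/
abbrev extOf (K : Subgroup G) : Subgroup G := (extendedTwoLayer K).map K.subtype

theorem core_balance {K R : Subgroup G} (hR : IsPGroup 2 R) (hRK : R ≤ K) :
    oppOf 2 (K ⊓ 𝒞(R)) ≤ extOf K := by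
  obtain ⟨R, rfl⟩ := exists_map_subtype hRK
  rw [← map_subtype_centralizer, ← map_oppOf_of_injective K.subtype_injective]
  exact map_mono (core_balance_top ((isPGroup_map_iff K.subtype_injective).1 hR))

theorem plOf_le_extOf (K : Subgroup G) : plOf 2 K ≤ extOf K :=
  map_mono (le_sup_left.trans le_sup_left)

theorem exists_extOf_eq (K : Subgroup G) : ∃ T : Subgroup G, IsPiHallOf {2} T (plOf 2 K ⊔ ppOf 2 K) ∧
    extOf K = plOf 2 K ⊔ oppOf 2 K ⊔ oppOf 2 (K ⊓ 𝒞(T)) := by
  obtain ⟨T, hT⟩ := H1.exists_sylowOf 2 (pLayer 2 K ⊔ pPrimePCore 2 K)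
  refine ⟨T.map K.subtype, by simpa only [Subgroup.map_sup] using H1.IsPiHallOf.map hT K.subtype, ?_⟩
  rw [extOf, extendedTwoLayer_eq hT, Subgroup.map_sup, Subgroup.map_sup,
    map_oppOf_of_injective K.subtype_injective, map_subtype_centralizer]

theorem self_le_normalizer_extOf (K : Subgroup G) : K ≤ 𝒩(extOf K) :=
  H1.le_normalizer_map_subtype_iff.2 extendedTwoLayer_normal

theorem SN.extOf_le {H K P : Subgroup G} (hP : IsPGroup 2 P) (hPK : P ≤ K) (h : SN H (K ⊓ 𝒞(P))) :
    extOf H ≤ extOf K := by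
  obtain ⟨T, hT, e⟩ := exists_extOf_eq H
  have hTH : T ≤ H := hT.1.trans (sup_le (H5.plOf_le 2 H) (ppOf_le 2 H))
  rw [e]
  refine sup_le (sup_le ((h.plOf_le.trans (lbalance_of_le hP hPK)).trans (plOf_le_extOf K))
    ((h.oppOf_le 2).trans (core_balance hP hPK))) (((h.inf_right 𝒞(T)).oppOf_le 2).trans ?_)
  rw [inf_assoc, ← centralizer_sup]
  exact core_balance (isPGroup_sup (le_normalizer_of_le_centralizer (le_centralizer_iff.1
    (hTH.trans (h.le.trans inf_le_right)))) hP (IsPiHallOf.isPGroup' hT))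
    (sup_le hPK (hTH.trans (h.le.trans inf_le_left)))

end H5
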