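import Cfsg.Agent.S3370
/-! Linear groups of prime power order whose orbits on non-zero vectors all have the same size. -/
set_option autoImplicit false
namespace H5HT
open Subgroup H25

variable {F V G : Type*} [Field F] [AddCommGroup V] [Module F V] [Group G]

/-- the stabilizer of a vector -/
def St (ρ : G →* (V ≃ₗ[F] V)) (v : V) : Subgroup G where
  carrier := {g | ρ g v = v}
  one_mem' := by simp
  mul_mem' := fun {a b} ha hb => by
    show ρ (a * b) v = v
    rw [rho_mul, hb, ha]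
  inv_mem' := fun {a} ha => by
    show ρ a⁻¹ v = v
    conv_lhs => rw [← (ha : ρ a v = v)]
    rw [← rho_mul, inv_mul_cancel, map_one]; rfl

theorem mem_St {ρ : G →* (V ≃ₗ[F] V)} {v : V} {g : G} : g ∈ St ρ v ↔ ρ g v = v := Iff.rfl

theorem rho_inv (ρ : G →* (V ≃ₗ[F] V)) (g : G) (v : V) : ρ g⁻¹ (ρ g v) = v := by
  rw [← rho_mul, inv_mul_cancel, map_one]; rfl

theorem orb_card (ρ : G →* (V ≃ₗ[F] V)) (v : V) :
    Nat.card {u : V | ∃ g : G, ρ g v = u} = (St ρ v).index := by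
  letI : MulAction G V :=
    { smul := fun g v => ρ g v
      one_smul := fun v => by show ρ 1 _ = _; simp
      mul_smul := fun a b v => rho_mul ρ a b v }
  have : St ρ v = MulAction.stabilizer G v := rfl
  rw [this, MulAction.index_stabilizer]
  rfl

theorem eq_one_of {ρ : G →* (V ≃ₗ[F] V)} (hρ : Function.Injective ρ) {g : G} (h : ∀ v, ρ g v = v) : g = 1 :=
  hρ (LinearEquiv.ext fun v => by rw [h, map_one]; rfl)

theorem card_le_two [Finite G] {S H : Subgroup G} (hH : H.index = 2) (h : ∀ g ∈ S, g ∈ H → g = 1) : Nat.card S ≤ 2 := by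
  rw [← hH]
  refine Nat.card_le_card_of_injective (fun s : S => ((s : G) : G ⧸ H)) fun s t e => Subtype.ext ?_
  exact inv_mul_eq_one.1 (h _ (mul_mem (inv_mem s.2) t.2) (QuotientGroup.eq.1 e))

/-- all stabilizers of non-zero vectors have the same order -/
def Half (ρ : G →* (V ≃ₗ[F] V)) : Prop := ∀ v w : V, v ≠ 0 → w ≠ 0 → Nat.card (St ρ v) = Nat.card (St ρ w)

theorem Half.eq [Finite G] {ρ : G →* (V ≃ₗ[F] V)} (h : Half ρ) {v w : V} (hv : v ≠ 0) (hw : w ≠ 0)
    (e : St ρ v ≤ St ρ w) : St ρ v = St ρ w := eq_of_le_of_card_ge e (h w v hw hv).le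

theorem Half.irr [Finite G] {ρ : G →* (V ≃ₗ[F] V)} (h : Half ρ) (hρ : Function.Injective ρ)
    (hc : ∀ L : Subgroup G, (Nat.card L : F) ≠ 0) (hns : ¬ ∀ v : V, v ≠ 0 → ∀ g : G, ρ g v = v → g = 1)
    (W : Submodule F V) (hW : ∀ g : G, ∀ w ∈ W, ρ g w ∈ W) : W = ⊥ ∨ W = ⊤ := by
  classical
  by_contra hn
  push Not at hn
  obtain ⟨w0, hw0, hw0'⟩ := (Submodule.ne_bot_iff _).1 hn.1
  have key : ∀ v, v ∉ W → ∀ g, ρ g v - v ∈ W → ρ g v = v := fun v hv => by
    let L : Subgroup G :=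
      { carrier := {g | ρ g v - v ∈ W}
        one_mem' := by simp
        mul_mem' := fun {a b} ha hb => by
          show ρ (a * b) v - v ∈ W
          have := add_mem (hW a _ hb) ha
          rwa [map_sub, ← rho_mul, sub_add_sub_cancel] at this
        inv_mem' := fun {a} ha => by
          show ρ a⁻¹ v - v ∈ W
          have := neg_mem (hW a⁻¹ _ ha)
          rwa [map_sub, rho_inv, neg_sub] at this }
    have := Fintype.ofFinite L
    let v' : V := (Nat.card L : F)⁻¹ • ∑ g : L, ρ g v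
    have h1 : v' - v ∈ W := by
      have : v' - v = (Nat.card L : F)⁻¹ • ∑ g : L, (ρ g v - v) := by
        rw [Finset.sum_sub_distrib, smul_sub, Finset.sum_const, Finset.card_univ, ← Nat.card_eq_fintype_card,
          ← Nat.cast_smul_eq_nsmul F, smul_smul, inv_mul_cancel₀ (hc L), one_smul]
      rw [this]
      exact W.smul_mem _ (sum_mem fun g _ => g.2)
    have h2 : L ≤ St ρ v' := fun a ha => by
      rw [mem_St, map_smul, map_sum]
      congr 1
      exact Fintype.sum_equiv (Equiv.mulLeft (⟨a, ha⟩ : L)) _ _ fun g => (rho_mul ρ a g v).symm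
    have h3 : St ρ v ≤ L := fun a ha => by
      show ρ a v - v ∈ W
      rw [mem_St.1 ha, sub_self]; exact zero_mem _
    have v0 : v ≠ 0 := fun e => hv (e ▸ zero_mem _)
    have v1 : v' ≠ 0 := fun e => hv (by simpa [e] using h1)
    have h4 := h.eq v0 v1 (h3.trans h2)
    intro g hg
    exact mem_St.1 (h4 ▸ h2 hg)
  have k2 : ∀ v, v ∉ W → ∀ w ∈ W, St ρ v ≤ St ρ w := fun v hv w hw g hg => by
    have := key (v + w) (fun e => hv (by simpa using sub_mem e hw)) g (by
      rw [map_add, mem_St.1 hg, add_sub_add_left_eq_sub]; exact sub_mem (hW g w hw) hw)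
    rw [map_add, mem_St.1 hg] at this
    exact add_left_cancel this
  obtain ⟨v0, hv0⟩ : ∃ v, v ∉ W := by
    by_contra e; push Not at e; exact hn.2 (eq_top_iff.2 fun v _ => e v)
  have k3 : St ρ w0 = ⊥ := eq_bot_iff.2 fun g hg => eq_one_of hρ fun v => by
    by_cases hv : v ∈ W
    · exact k2 v0 hv0 v hv (h.eq (v := v0) (fun e => hv0 (by rw [e]; exact zero_mem _)) hw0' (k2 v0 hv0 w0 hw0) ▸ hg)
    · exact mem_St.1 (h.eq (v := v) (fun e => hv (by rw [e]; exact zero_mem _)) hw0' (k2 v hv w0 hw0) ▸ hg)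
  refine hns fun v hv g hg => ?_
  have := h v w0 hv hw0'
  rw [k3, card_bot, card_eq_one] at this
  exact mem_bot.1 (this ▸ mem_St.2 hg)

theorem num2 {q r j : ℕ} (hq : q.Prime) (h2 : q ≠ 2) (hr : r ≠ 0) (h : q ^ r + 1 = 2 ^ j) : r = 1 := by
  have ho := hq.odd_of_ne_two h2
  rcases Nat.even_or_odd r with ⟨k, rfl⟩ | hodd
  · exfalso
    obtain ⟨c, hc⟩ : Odd (q ^ k) := ho.pow
    have h1 : 1 < q ^ k := Nat.one_lt_pow (by omega) hq.one_lt
    rw [pow_add, hc] at h
    have e : (2 * c + 1) * (2 * c + 1) + 1 = 4 * (c * c + c) + 2 := by ring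
    rcases j with _ | _ | j
    · omega
    · have : 0 < c * c + c := by omega
      omega
    · rw [pow_succ, pow_succ] at h; omega
  · exact Nat.pow_right_injective hq.two_le ((Cfsg.Agent.S3370.num_odd ho hodd (Or.inl h)).trans (pow_one q).symm)

theorem card_coset {H X : Subgroup G} {b : G} (hH : H.index = 2) (hb : b ∉ H) {P : G → Prop}
    (h1 : ∀ g ∈ H, ¬ P g) (h2 : ∀ x ∈ H, P (x * b) ↔ x ∈ X) (hX : X ≤ H) : Nat.card {g : G // P g} = Nat.card X := by
  refine (Nat.card_congr (Equiv.ofBijective (fun x : X => (⟨x * b, (h2 x (hX x.2)).2 x.2⟩ : {g : G // P g})) ⟨fun x y e => ?_,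
    fun g => ?_⟩)).symm
  · exact Subtype.ext (mul_right_cancel (congrArg Subtype.val e))
  · have : g.1 * b⁻¹ ∈ H := (mul_mem_iff_of_index_two hH).2 (iff_of_false (fun e => h1 _ e g.2) (by simpa using hb))
    exact ⟨⟨g.1 * b⁻¹, (h2 _ this).1 (by simpa using g.2)⟩, Subtype.ext (by simp)⟩

theorem inv_central {a b y : G} {r : ℤ} (hr : Odd r) (hi : (zpowers a).index = 2) (hb : b ∉ zpowers a)
    (h : b * a * b⁻¹ = a ^ r) (hy : y ∈ zpowers a) (y2 : y ^ 2 = 1) : y ∈ center G := by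
  have := Fact.mk Nat.prime_two
  have h1 : b * y * b⁻¹ = y := by
    obtain ⟨i, rfl⟩ := hy
    obtain ⟨k, rfl⟩ := hr
    simp only at y2 ⊢
    rw [← conj_zpow, h, ← zpow_mul, mul_comm, zpow_mul, zpow_add, zpow_mul, zpow_ofNat, y2]; simp
  have h2 : zpowers a ⊔ zpowers b ≤ centralizer {y} := sup_le
    (by obtain ⟨i, rfl⟩ := hy; exact zpowers_le.2 (mem_centralizer_singleton_iff.2 (Commute.zpow_right rfl i)))
    (zpowers_le.2 (mem_centralizer_singleton_iff.2 (mul_inv_eq_iff_eq_mul.1 h1)))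
  rw [H9.sup_zpowers_eq_top_of_isCoatom (H9.isCoatom_of_index_eq_prime hi) hb] at h2
  exact mem_center_iff.2 fun g => mem_centralizer_singleton_iff.1 (h2 (mem_top g))

theorem dqs_case (q : ℕ) [Fact q.Prime] {V : Type*} [AddCommGroup V] [Module (ZMod q) V] [Finite V] [Nontrivial V]
    [Finite G] (hG : IsPGroup 2 G) {ρ : G →* (V ≃ₗ[ZMod q] V)} (hρ : Function.Injective ρ) (h : Half ρ) (hq : q ≠ 2)
    (hirr : ∀ W : Submodule (ZMod q) V, (∀ g : G, ∀ w ∈ W, ρ g w ∈ W) → W = ⊥ ∨ W = ⊤)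
    (hns : ¬ ∀ v : V, v ≠ 0 → ∀ g : G, ρ g v = v → g = 1) (hd : H9.DQS G) :
    Nat.card V = q ^ 2 ∧ ∃ m : ℕ, q = 2 ^ m - 1 ∧
      (Nonempty (G ≃* DihedralGroup (2 ^ m)) ∨ (Cfsg.IsQuasiDihedral G ∧ Nat.card G = 2 ^ (m + 2))) := by
  have := Fact.mk Nat.prime_two
  obtain ⟨m, a, b, hm, ha, hi, hb, hr⟩ := hd
  obtain ⟨k, rfl⟩ : ∃ k, m = k + 2 := ⟨m - 2, by omega⟩
  have e1 : k + 2 - 1 = k + 1 := rfl
  rw [e1] at hr
  have p1 : 1 ≤ 2 ^ (k + 1) := Nat.one_le_two_pow
  obtain ⟨r, ro, hr'⟩ : ∃ r : ℤ, Odd r ∧ b * a * b⁻¹ = a ^ r := by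
    rcases hr with hr | hr | hr
    · exact ⟨-1, by decide, by rw [hr.2, zpow_neg_one]⟩
    · exact ⟨-1, by decide, by rw [hr.2, zpow_neg_one]⟩
    · refine ⟨((2 ^ (k + 1) - 1 : ℕ) : ℤ), ?_, by rw [hr.2.2, zpow_natCast]⟩
      rw [Int.odd_coe_nat]
      exact Nat.Even.sub_odd p1 (by simp [Nat.even_pow]) odd_one
  have cen := fun y => inv_central (y := y) ro hi hb hr'
  have hst : ∀ v : V, v ≠ 0 → Nat.card (St ρ v) ≤ 2 := fun v hv => card_le_two hi fun g hg ga => by
    by_contra g1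
    obtain ⟨n, hn⟩ := IsPGroup.iff_orderOf.1 hG g
    obtain ⟨n, rfl⟩ : ∃ l, n = l + 1 := ⟨n - 1, by
      rcases n with _ | n
      · exact absurd (orderOf_eq_one_iff.1 hn) g1
      · rfl⟩
    refine hv (fpf_of_central hρ hirr (cen (g ^ 2 ^ n) (pow_mem ga _) ?_) ?_ (pow_mem hg _))
    · rw [← pow_mul, ← pow_succ, ← hn, pow_orderOf_eq_one]
    · exact pow_ne_one_of_lt_orderOf (by positivity) (hn ▸ Nat.pow_lt_pow_right (by norm_num) (by omega))
  have hs2 : ∀ v : V, v ≠ 0 → Nat.card {g : G // ρ g v = v} = 2 := fun v hv => by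
    push Not at hns
    obtain ⟨w, hw, g, hg, g1⟩ := hns
    have h1 : 1 < Nat.card (St ρ w) := Finite.one_lt_card_iff_nontrivial.2
      ⟨⟨⟨g, hg⟩, 1, fun e => g1 (congrArg Subtype.val e)⟩⟩
    have h2 := hst w hw
    exact (h v w hv hw).trans (by omega)
  have z2 : orderOf (a ^ 2 ^ (k + 1)) = 2 := by
    rw [orderOf_pow_of_dvd (by positivity) (ha ▸ pow_dvd_pow 2 (by omega)), ha, pow_succ 2 (k + 1),
      Nat.mul_div_cancel_left _ (by positivity)]
  obtain ⟨s, hV, hN⟩ := Cfsg.Agent.S3381.result q ρ hρ hs2 _ z2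
    (cen _ (pow_mem (mem_zpowers a) _) (orderOf_dvd_iff_pow_eq_one.1 z2.dvd))
  have s0 : s ≠ 0 := by
    rintro rfl
    have := Finite.one_lt_card (α := V)
    simp [hV] at this
  have hq' : q.Prime := Fact.out
  have nc : ∀ x ∈ zpowers a, x * b ∉ center G := fun x hx e => by
    have h1 : a * b = b * a := by
      obtain ⟨i, rfl⟩ := hx
      have := mem_center_iff.1 e a
      simp only at this
      rw [← mul_assoc, (Commute.zpow_right (Commute.refl a) i).eq, mul_assoc, mul_assoc] at this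
      exact mul_left_cancel this
    rw [← h1, mul_inv_cancel_right] at hr
    have h2 : a ^ 2 ^ (k + 1) ≠ 1 := fun e => by simp [e] at z2
    have h3 : a ^ 2 = 1 ∨ a ^ 2 = a ^ 2 ^ (k + 1) ∧ 1 ≤ k := by
      rcases hr with hr | hr | hr
      · left; rw [pow_two]; exact mul_eq_one_iff_eq_inv.2 hr.2
      · left; rw [pow_two]; exact mul_eq_one_iff_eq_inv.2 hr.2
      · right; refine ⟨?_, by omega⟩
        calc a ^ 2 = a * a ^ (2 ^ (k + 1) - 1) := by rw [← hr.2.2, pow_two]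
          _ = _ := by rw [← pow_succ']; congr 1; omega
    rcases h3 with h3 | ⟨h3, h4⟩
    · have := Nat.le_of_dvd (by norm_num) (ha ▸ orderOf_dvd_of_pow_eq_one h3)
      rw [pow_add] at this; omega
    · have := pow_injOn_Iio_orderOf (x := a) (by rw [ha]; simp [pow_add]; omega)
        (by rw [ha]; exact Nat.pow_lt_pow_right (by norm_num) (by omega)) h3
      obtain ⟨l, rfl⟩ : ∃ l, k = l + 1 := ⟨k - 1, by omega⟩
      rw [pow_succ, pow_succ] at this
      have := Nat.one_le_two_pow (n := l)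
      omega
  have cnt : ∀ X : Subgroup G, X ≤ zpowers a → (∀ x ∈ zpowers a, x * b * (x * b) = 1 ↔ x ∈ X) →
      q ^ s + 1 = Nat.card X := fun X hX hx => by
    rw [← hN]
    refine card_coset hi hb (fun g hg e => e.2 (cen g hg (by rw [← e.1, pow_orderOf_eq_one]))) (fun x hx' => ?_) hX
    rw [← hx x hx', orderOf_eq_prime_iff, pow_two]
    exact ⟨fun e => e.1.1, fun e => ⟨⟨e, fun e' => nc x hx' (e' ▸ one_mem _)⟩, nc x hx'⟩⟩
  have sq : ∀ i : ℤ, a ^ i * b * (a ^ i * b) = a ^ i * (b * a * b⁻¹) ^ i * b ^ 2 := fun i => by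
    rw [conj_zpow, pow_two]; group
  have htop : closure ({a, b} : Set G) = ⊤ := by
    rw [H9.closure_pair_eq, H9.sup_zpowers_eq_top_of_isCoatom (H9.isCoatom_of_index_eq_prime hi) hb]
  rcases hr with hr | hr | hr
  · have := cnt (zpowers a) le_rfl (by
      rintro _ ⟨i, rfl⟩
      simp only [sq, hr.1, hr.2]; simp)
    rw [Nat.card_zpowers, ha] at this
    obtain rfl := num2 hq' hq s0 this
    exact ⟨hV, k + 2, by rw [← this]; simp, .inl (H6.equiv_dihedral_of_top ha (by rw [← pow_two, hr.1]) hr.2 hb htop)⟩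
  · exfalso
    have h0 : Nonempty {g : G // orderOf g = 2 ∧ g ∉ center G} := (Nat.card_pos_iff.1 (by rw [hN]; positivity)).1
    obtain ⟨g, g2, gc⟩ := h0
    have h1 : g ∉ zpowers a := fun e => gc (cen g e (by rw [← g2, pow_orderOf_eq_one]))
    obtain ⟨i, hi'⟩ : g * b⁻¹ ∈ zpowers a := (mul_mem_iff_of_index_two hi).2 (iff_of_false h1 (by simpa using hb))
    have h2 := sq i
    simp only at hi'
    rw [hr.1, hr.2, hi', inv_mul_cancel_right, ← pow_two, orderOf_dvd_iff_pow_eq_one.1 g2.dvd] at h2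
    rw [← hi', inv_zpow, mul_inv_cancel, one_mul] at h2
    rw [← h2, orderOf_one] at z2
    omega
  · have := cnt (zpowers (a ^ 2)) (zpowers_le.2 (pow_mem (mem_zpowers a) 2)) (by
      rintro _ ⟨i, rfl⟩
      simp only [sq, hr.2.1, hr.2.2, mul_one]
      rw [← zpow_natCast, ← zpow_mul, ← zpow_add, ← orderOf_dvd_iff_zpow_eq_one, ha, Nat.cast_sub p1]
      have e : i + (((2 ^ (k + 1) : ℕ) : ℤ) - ((1 : ℕ) : ℤ)) * i = 2 ^ (k + 1) * i := by push_cast; ring
      rw [e, pow_succ 2 (k + 1), Nat.cast_mul, Nat.cast_pow, Nat.cast_ofNat, mul_dvd_mul_iff_left (by positivity)]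
      constructor
      · rintro ⟨j, rfl⟩
        exact ⟨j, by simp only; rw [zpow_mul, zpow_ofNat]⟩
      · rintro ⟨j, hj⟩
        simp only at hj
        rw [← zpow_natCast, ← zpow_mul, zpow_eq_zpow_iff_modEq, ha] at hj
        have := (Int.ModEq.of_dvd (m := 2) (by push_cast; exact dvd_pow_self 2 (by omega)) hj).dvd
        simpa using dvd_add this (dvd_mul_right 2 j))
    rw [Nat.card_zpowers, orderOf_pow_of_dvd (by norm_num) (ha ▸ dvd_pow_self 2 (by omega)), ha, pow_succ 2 (k + 1),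
      Nat.mul_div_cancel _ (by norm_num)] at this
    obtain rfl := num2 hq' hq s0 this
    have hc : Nat.card G = 2 ^ (k + 2 + 1) := by
      rw [← (zpowers a).index_mul_card, hi, Nat.card_zpowers, ha]; ring
    exact ⟨hV, k + 1, by rw [← this]; simp, .inr ⟨⟨k + 2, hr.1, hc, a, b, ha,
      orderOf_eq_prime hr.2.1 (fun e => hb (e ▸ one_mem _)), hr.2.2⟩, hc⟩⟩

end H5HT
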