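import Cfsg.Agent.H5.HT1
/-! Half-transitive linear groups of prime power order: the imprimitive case. -/
set_option autoImplicit false
namespace H5HT
open Subgroup H25

variable {F V G : Type*} [Field F] [AddCommGroup V] [Module F V] [Group G]

theorem nofix {p : ℕ} (hp : p.Prime) {σ : Equiv.Perm (Fin p)} (h : orderOf σ = p) :
    σ.IsCycle ∧ ∀ i, σ i ≠ i := by
  have : σ.IsCycle := Equiv.Perm.isCycle_of_prime_order'' (by simpa using hp) (by simpa using h)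
  refine ⟨this, fun i => ?_⟩
  rw [← Equiv.Perm.mem_support, Finset.eq_univ_of_card σ.support (by rw [← this.orderOf, h, Fintype.card_fin])]
  exact Finset.mem_univ i

structure Imp {p : ℕ} (ρ : G →* (V ≃ₗ[F] V)) (H : Subgroup G) (W : Fin p → Submodule F V) : Prop where
  idx : H.index = p
  sup : iSup W = ⊤
  ind : iSupIndep W
  inv : ∀ h ∈ H, ∀ i, ∀ w ∈ W i, ρ h w ∈ W i
  unf : ∀ i, ∃ h ∈ H, h ≠ 1 ∧ ∀ w ∈ W i, ρ h w = w
  out : ∀ g : G, g ∉ H → ∃ σ : Equiv.Perm (Fin p), orderOf σ = p ∧ ∀ i, (W i).map (ρ g : V →ₗ[F] V) = W (σ i)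

namespace Imp
variable {p : ℕ} {ρ : G →* (V ≃ₗ[F] V)} {H : Subgroup G} {W : Fin p → Submodule F V} (h : Imp ρ H W)
include h

theorem dj {i j : Fin p} (e : i ≠ j) {v : V} (h1 : v ∈ W i) (h2 : v ∈ W j) : v = 0 :=
  Submodule.disjoint_def.1 (h.ind.pairwiseDisjoint e) v h1 h2

theorem exo (hp : p.Prime) : ∃ g, g ∉ H := by
  by_contra h'
  push Not at h'
  have := h.idx
  rw [(Subgroup.eq_top_iff' H).2 h', Subgroup.index_top] at this
  exact hp.one_lt.ne this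

theorem ne [Nontrivial V] (hp : p.Prime) (j : Fin p) : ∃ w ∈ W j, w ≠ 0 := by
  obtain ⟨i, hi0⟩ : ∃ i, W i ≠ ⊥ := by
    by_contra e
    push Not at e
    have := h.sup
    rw [iSup_eq_bot.2 e] at this
    exact bot_ne_top this
  obtain ⟨g, hg⟩ := h.exo hp
  obtain ⟨σ, h1, h2⟩ := h.out g hg
  obtain ⟨c, h3⟩ := nofix hp h1
  obtain ⟨n, rfl⟩ := c.exists_pow_eq (h3 i) (h3 j)
  induction n with
  | zero => exact (Submodule.ne_bot_iff _).1 hi0
  | succ n ih =>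
    obtain ⟨w, hw, w0⟩ := ih
    rw [pow_succ', Equiv.Perm.mul_apply, ← h2]
    exact ⟨ρ g w, ⟨w, hw, rfl⟩, by simpa using w0⟩

theorem fix {i j : Fin p} (e : i ≠ j) {u w : V} (hu : u ∈ W i) (hw : w ∈ W j) {g : G} (hg : g ∈ H)
    (hf : ρ g (u + w) = u + w) : ρ g u = u ∧ ρ g w = w := by
  rw [map_add] at hf
  have h1 : ρ g u - u = w - ρ g w := by rw [sub_eq_sub_iff_add_eq_add, hf, add_comm]
  have h2 := h.dj e (sub_mem (h.inv g hg i u hu) hu) (h1 ▸ sub_mem hw (h.inv g hg j w hw))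
  exact ⟨sub_eq_zero.1 h2, (sub_eq_zero.1 (h1 ▸ h2)).symm⟩

theorem add_ne {i j : Fin p} (e : i ≠ j) {u w : V} (hu : u ∈ W i) (hw : w ∈ W j) (u0 : u ≠ 0) : u + w ≠ 0 := fun x =>
  u0 (h.dj e hu (by rw [eq_neg_of_add_eq_zero_left x]; exact neg_mem hw))

theorem all (hρ : Function.Injective ρ) {g : G} (e : ∀ i, ∀ w ∈ W i, ρ g w = w) : g = 1 := by
  refine eq_one_of hρ fun v => ?_
  have : iSup W ≤ fixSp ρ g := iSup_le fun i w hw => e i w hw
  exact this (h.sup ▸ Submodule.mem_top)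

theorem odd [Finite G] [Nontrivial V] (hp : p.Prime) (h2 : p ≠ 2) (hρ : Function.Injective ρ) (hh : Half ρ) : False := by
  have k0 : ∀ (σ : Equiv.Perm (Fin p)) (g : G), (∀ i, (W i).map (ρ g : V →ₗ[F] V) = W (σ i)) → (∀ i, σ i ≠ i) →
      ∀ i j, i ≠ j → σ i ≠ j → ∀ u ∈ W i, ∀ w ∈ W j, ρ g (u + w) = u + w → u = 0 := fun σ g hσ h3 i j e e' u hu w hw hf => by
    have h1 : ∀ l, l ≠ σ i → W l ≤ ⨆ j, ⨆ (_ : j ≠ σ i), W j := fun l hl =>
      le_iSup₂_of_le (f := fun j (_ : j ≠ σ i) => W j) l hl le_rfl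
    have h4 : ρ g u = u + w - ρ g w := by rw [← hf, map_add, add_sub_cancel_right]
    have := Submodule.disjoint_def.1 (h.ind (σ i)) (ρ g u) (hσ i ▸ ⟨u, hu, rfl⟩) (h4 ▸ sub_mem
      (add_mem (h1 i (h3 i).symm hu) (h1 j e'.symm hw)) (h1 (σ j) (fun x => e (σ.injective x).symm) (hσ j ▸ ⟨w, hw, rfl⟩)))
    simpa using this
  have k1 : ∀ i j, i ≠ j → ∀ u ∈ W i, ∀ w ∈ W j, u ≠ 0 → w ≠ 0 → St ρ (u + w) ≤ H := fun i j e u hu w hw u0 w0 g hg => by
    by_contra gH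
    obtain ⟨σ, h1, hσ⟩ := h.out g gH
    obtain ⟨-, h3⟩ := nofix hp h1
    by_cases a : σ i = j
    · by_cases b : σ j = i
      · have c : (σ ^ 2) i = i := by rw [pow_two, Equiv.Perm.mul_apply, a, b]
        obtain ⟨n, hn⟩ := hp.odd_of_ne_two h2
        have d := Equiv.Perm.pow_apply_eq_self_of_apply_eq_self c n
        have : (σ ^ p) i = i := by rw [orderOf_dvd_iff_pow_eq_one.1 h1.dvd]; rfl
        have e2 : σ ^ p = σ * (σ ^ 2) ^ n := by rw [← pow_mul, ← pow_succ', ← hn]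
        rw [e2, Equiv.Perm.mul_apply, d] at this
        exact h3 i this
      · exact w0 (k0 σ g hσ h3 j i e.symm b w hw u hu (by rw [add_comm]; exact hg))
    · exact u0 (k0 σ g hσ h3 i j e a u hu w hw hg)
  have k2 : ∀ i j, i ≠ j → ∀ u ∈ W i, ∀ w ∈ W j, u ≠ 0 → w ≠ 0 → St ρ u ≤ St ρ w := fun i j e u hu w hw u0 w0 => by
    have a := fun g hg => h.fix e hu hw (k1 i j e u hu w hw u0 w0 (x := g) hg) hg
    rw [← hh.eq (h.add_ne e hu hw u0) u0 fun g hg => (a g hg).1]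
    exact fun g hg => (a g hg).2
  let i : Fin p := ⟨0, hp.pos⟩
  obtain ⟨g, -, g1, hg⟩ := h.unf i
  obtain ⟨u, hu, u0⟩ := h.ne hp i
  refine g1 (h.all hρ fun j w hw => ?_)
  by_cases e : i = j
  · exact hg w (e ▸ hw)
  · by_cases w0 : w = 0
    · simp [w0]
    · exact k2 i j e u hu w hw u0 w0 (hg u hu)

end Imp

namespace Imp
variable {ρ : G →* (V ≃ₗ[F] V)} {H : Subgroup G} {W : Fin 2 → Submodule F V} (h : Imp ρ H W)
include h

theorem sw {g : G} (hg : g ∉ H) : (W 0).map (ρ g : V →ₗ[F] V) = W 1 ∧ (W 1).map (ρ g : V →ₗ[F] V) = W 0 := by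
  obtain ⟨σ, h1, hσ⟩ := h.out g hg
  obtain ⟨-, h3⟩ := nofix Nat.prime_two h1
  have a : σ 0 = 1 := by have := h3 0; omega
  have b : σ 1 = 0 := by have := h3 1; omega
  exact ⟨a ▸ hσ 0, b ▸ hσ 1⟩

theorem sup2 : W 0 ⊔ W 1 = ⊤ := by
  rw [eq_top_iff, ← h.sup]
  exact iSup_le fun i => by fin_cases i; exacts [le_sup_left, le_sup_right]

theorem exz [Finite G] (hG : IsPGroup 2 G) (hρ : Function.Injective ρ)
    (hirr : ∀ W : Submodule F V, (∀ g : G, ∀ w ∈ W, ρ g w ∈ W) → W = ⊥ ∨ W = ⊤) :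
    ∃ z, (∀ u ∈ W 0, ρ z u = u) ∧ ∀ w ∈ W 1, ρ z w = -w := by
  have := Fact.mk Nat.prime_two
  let K : Subgroup H :=
    { carrier := {g | ∀ u ∈ W 0, ρ g u = u}
      one_mem' := by simp
      mul_mem' := fun {a b} ha hb u hu => by rw [coe_mul, rho_mul, hb u hu, ha u hu]
      inv_mem' := fun {a} ha u hu => (St ρ u).inv_mem (ha u hu) }
  have Kn : K.Normal := ⟨fun a ha g u hu => by
    rw [coe_mul, coe_mul, rho_mul, rho_mul, ha _ (h.inv _ (g⁻¹).2 0 u hu), ← rho_mul, ← coe_mul, mul_inv_cancel]; simp⟩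
  obtain ⟨z, hz, zc, z2⟩ := H9.exists_mem_center_orderOf_eq (hG.to_subgroup H) (M := K) (by
    obtain ⟨g, gH, g1, hg⟩ := h.unf 0
    intro e
    have a : (⟨g, gH⟩ : H) ∈ K := hg
    rw [e, mem_bot] at a
    exact g1 (congrArg Subtype.val a))
  have zz : (z : G) * z = 1 := by rw [← coe_mul, ← pow_two, orderOf_dvd_iff_pow_eq_one.1 z2.dvd]; rfl
  have z1 : (z : G) ≠ 1 := fun e => by rw [(Subtype.ext e : z = 1), orderOf_one] at z2; omega
  obtain ⟨t, ht⟩ := h.exo Nat.prime_two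
  let B : Submodule F V := W 1 ⊓ fixSp ρ z
  have hB : ∀ g ∈ H, ∀ w ∈ B, ρ g w ∈ B := fun g hg w hw => ⟨h.inv g hg 1 w hw.1, by
    have := congrArg Subtype.val (mem_center_iff.1 zc ⟨g, hg⟩)
    rw [coe_mul, coe_mul] at this
    rw [SetLike.mem_coe, mem_fixSp, ← rho_mul, ← this, rho_mul, mem_fixSp.1 hw.2]⟩
  have i2 := fun a b => mul_mem_iff_of_index_two (a := a) (b := b) h.idx
  have B0 : B = ⊥ := by
    rcases hirr (B ⊔ B.map (ρ t : V →ₗ[F] V)) (fun g w hw => by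
      obtain ⟨x, hx, _, ⟨y, hy, rfl⟩, rfl⟩ := Submodule.mem_sup.1 hw
      rw [map_add]
      by_cases hg : g ∈ H
      · refine add_mem (Submodule.mem_sup_left (hB g hg x hx)) (Submodule.mem_sup_right ⟨ρ (t⁻¹ * (g * t)) y,
          hB _ ((i2 _ _).2 (by simp [i2, ht, hg])) y hy, ?_⟩)
        show ρ t _ = ρ g (ρ t y)
        rw [← rho_mul, mul_inv_cancel_left, rho_mul]
      · refine add_mem (Submodule.mem_sup_right ⟨ρ (t⁻¹ * g) x, hB _ ((i2 _ _).2 (by simp [ht, hg])) x hx, ?_⟩)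
          (Submodule.mem_sup_left ?_)
        · show ρ t _ = _
          rw [← rho_mul, mul_inv_cancel_left]
        · have := hB (g * t) ((i2 _ _).2 (by simp [ht, hg])) y hy
          rwa [rho_mul] at this) with e | e
    · exact eq_bot_iff.2 (e ▸ le_sup_left)
    · exfalso
      refine z1 (eq_one_of hρ fun v => ?_)
      obtain ⟨x, hx, _, ⟨y, hy, rfl⟩, rfl⟩ := Submodule.mem_sup.1 (e ▸ Submodule.mem_top : v ∈ B ⊔ B.map (ρ t : V →ₗ[F] V))
      rw [map_add, mem_fixSp.1 hx.2, hz _ ((h.sw ht).2 ▸ ⟨y, hy.1, rfl⟩)]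
  refine ⟨z, hz, fun w hw => eq_neg_of_add_eq_zero_left ((Submodule.eq_bot_iff _).1 B0 _
    ⟨add_mem (h.inv _ z.2 1 w hw) hw, ?_⟩)⟩
  rw [SetLike.mem_coe, mem_fixSp, map_add, ← rho_mul, zz, map_one, add_comm]; rfl

theorem swap [Finite G] (hh : Half ρ) (h2 : (2 : F) ≠ 0) {z : G} (hz : ∀ u ∈ W 0, ρ z u = u) (hz' : ∀ w ∈ W 1, ρ z w = -w)
    {u w : V} (hu : u ∈ W 0) (hw : w ∈ W 1) (u0 : u ≠ 0) (w0 : w ≠ 0) : ∃ g, g ∉ H ∧ ρ g u = w ∧ ρ g w = u := by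
  have e : (0 : Fin 2) ≠ 1 := by decide
  obtain ⟨g, hg, gH⟩ : ∃ g ∈ St ρ (u + w), g ∉ H := by
    by_contra x
    push Not at x
    have a := fun g hg => h.fix e hu hw (x g hg) hg
    have b := hh.eq (h.add_ne e hu hw u0) u0 fun g hg => (a g hg).1
    have c := (a z (b ▸ hz u hu)).2
    rw [hz' w hw, neg_eq_iff_add_eq_zero, ← two_smul F, smul_eq_zero] at c
    exact c.elim h2 w0
  have h1 : ρ g u ∈ W 1 := (h.sw gH).1 ▸ ⟨u, hu, rfl⟩
  have h3 : ρ g w ∈ W 0 := (h.sw gH).2 ▸ ⟨w, hw, rfl⟩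
  rw [mem_St, map_add] at hg
  have h4 : u - ρ g w = ρ g u - w := by rw [sub_eq_sub_iff_add_eq_add, hg]
  have h5 := h.dj e (sub_mem hu h3) (h4 ▸ sub_mem h1 hw)
  exact ⟨g, gH, sub_eq_zero.1 (h4 ▸ h5), (sub_eq_zero.1 h5).symm⟩

theorem card_sq [Finite V] : Nat.card V = Nat.card (W 0) * Nat.card (W 0) := by
  obtain ⟨t, ht⟩ := h.exo Nat.prime_two
  have c : IsCompl (W 0) (W 1) := ⟨h.ind.pairwiseDisjoint (by decide), codisjoint_iff.2 h.sup2⟩
  rw [← Nat.card_congr (Submodule.prodEquivOfIsCompl _ _ c).toEquiv, Nat.card_prod, ← (h.sw ht).1,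
    ← Nat.card_congr ((ρ t).submoduleMap (W 0)).toEquiv]

theorem card_dvd [Finite V] [Finite G] [Nontrivial V]
    (s : ∀ u ∈ W 0, ∀ w ∈ W 1, u ≠ 0 → w ≠ 0 → ∃ g, g ∉ H ∧ ρ g u = w ∧ ρ g w = u) :
    Nat.card (W 0) - 1 ∣ Nat.card G := by
  obtain ⟨u, hu, u0⟩ := h.ne Nat.prime_two 0
  obtain ⟨w, hw, w0⟩ := h.ne Nat.prime_two 1
  have e : {x : V | ∃ g : H, (ρ.comp H.subtype) g u = x} = (W 0 : Set V) \ {0} := Set.ext fun x => ⟨by
      rintro ⟨g, rfl⟩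
      exact ⟨h.inv g g.2 0 u hu, by simpa using u0⟩, fun hx => by
    obtain ⟨g, gH, a, -⟩ := s u hu w hw u0 w0
    obtain ⟨g', gH', -, b⟩ := s x hx.1 w hw hx.2 w0
    exact ⟨⟨g' * g, (mul_mem_iff_of_index_two h.idx).2 (iff_of_false gH' gH)⟩, by
      show ρ (g' * g) u = x
      rw [rho_mul, a, b]⟩⟩
  have := orb_card (ρ.comp H.subtype) u
  rw [e, Nat.card_coe_set_eq, Set.ncard_diff_singleton_of_mem (W 0).zero_mem] at this
  exact (this ▸ index_dvd_card _ : (W 0 : Set V).ncard - 1 ∣ _).trans (card_subgroup_dvd_card H)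

theorem plane [Finite G] [Nontrivial V] (hρ : Function.Injective ρ) (hh : Half ρ) {z : G} (hz : ∀ u ∈ W 0, ρ z u = u)
    (hz' : ∀ w ∈ W 1, ρ z w = -w)
    (s : ∀ u ∈ W 0, ∀ w ∈ W 1, u ≠ 0 → w ≠ 0 → ∃ g, g ∉ H ∧ ρ g u = w ∧ ρ g w = u) (d : Module.finrank F (W 0) = 1) :
    ∃ e : V ≃ₗ[F] (Fin 2 → F), ∀ f : (Fin 2 → F) ≃ₗ[F] (Fin 2 → F),
      (∃ g : G, f = e.symm.trans ((ρ g).trans e)) ↔
      ∃ a s : F, a ≠ 0 ∧ (s = 1 ∨ s = -1) ∧
        ((∀ v, f v = ![a * v 0, s * a⁻¹ * v 1]) ∨ (∀ v, f v = ![s * a⁻¹ * v 1, a * v 0])) := by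
  have e01 : (0 : Fin 2) ≠ 1 := by decide
  obtain ⟨u, hu, u0⟩ := h.ne Nat.prime_two 0
  obtain ⟨w, hw, w0⟩ := h.ne Nat.prime_two 1
  obtain ⟨t, tH, tu, tw⟩ := s u hu w hw u0 w0
  have su : ∀ x ∈ W 0, ∃ c : F, c • u = x := fun x hx => by
    obtain ⟨c, hc⟩ := (finrank_eq_one_iff_of_nonzero' (⟨u, hu⟩ : W 0) (by simpa using u0)).1 d ⟨x, hx⟩
    exact ⟨c, congrArg Subtype.val hc⟩
  have sw : ∀ x ∈ W 1, ∃ c : F, c • w = x := fun x hx => by
    obtain ⟨y, hy, rfl⟩ : x ∈ (W 0).map (ρ t : V →ₗ[F] V) := (h.sw tH).1 ▸ hx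
    obtain ⟨c, rfl⟩ := su y hy
    exact ⟨c, by simp [tu]⟩
  let φ : (Fin 2 → F) →ₗ[F] V := (LinearMap.proj 0).smulRight u + (LinearMap.proj 1).smulRight w
  have hφ : ∀ v, φ v = v 0 • u + v 1 • w := fun v => rfl
  have sp : ∀ x, ∃ a b : F, a • u + b • w = x := fun x => by
    obtain ⟨a, ha, b, hb, rfl⟩ := Submodule.mem_sup.1 (h.sup2 ▸ Submodule.mem_top : x ∈ W 0 ⊔ W 1)
    obtain ⟨c, rfl⟩ := su a ha
    obtain ⟨c', rfl⟩ := sw b hb
    exact ⟨c, c', rfl⟩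
  have bij : Function.Bijective φ := ⟨(injective_iff_map_eq_zero _).2 fun v hv => by
    rw [hφ] at hv
    have a : v 0 • u = 0 := by
      by_contra x
      exact h.add_ne e01 ((W 0).smul_mem _ hu) ((W 1).smul_mem _ hw) x hv
    rw [a, zero_add] at hv
    ext i
    fin_cases i
    exacts [(smul_eq_zero.1 a).resolve_right u0, (smul_eq_zero.1 hv).resolve_right w0], fun x => by
    obtain ⟨a, b, rfl⟩ := sp x
    exact ⟨![a, b], rfl⟩⟩
  have c2 : Nat.card (St ρ u) ≤ 2 := by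
    rw [hh u _ u0 (h.add_ne e01 hu hw u0)]
    refine card_le_two h.idx fun g hg gH => eq_one_of hρ fun x => ?_
    obtain ⟨a, b, rfl⟩ := sp x
    have := h.fix e01 hu hw gH hg
    rw [map_add, map_smul, map_smul, this.1, this.2]
  have key : ∀ g, ρ g u = u → ∀ c : F, ρ g w = c • w → c = 1 ∨ c = -1 := fun g hg c hc => by
    have a : g * g = 1 := by
      have b : g ^ Nat.card (St ρ u) = 1 := congrArg Subtype.val (pow_card_eq_one' (x := (⟨g, hg⟩ : St ρ u)))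
      have := Nat.card_pos (α := St ρ u)
      interval_cases Nat.card (St ρ u)
      · rw [pow_one] at b; simp [b]
      · rwa [pow_two] at b
    have b : ρ (g * g) w = (c * c) • w := by rw [rho_mul, hc, map_smul, hc, smul_smul]
    rw [a, map_one] at b
    exact mul_self_eq_one_iff.1 (smul_left_injective F w0 (b.symm.trans (one_smul F w).symm))
  have ga : ∀ a : F, a ≠ 0 → ∃ g, ρ g u = a • w ∧ ρ g w = a⁻¹ • u := fun a a0 => by
    obtain ⟨g, -, x, y⟩ := s u hu _ ((W 1).smul_mem a hw) u0 (smul_ne_zero a0 w0)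
    refine ⟨g, x, ?_⟩
    rw [← y, map_smul, smul_smul, inv_mul_cancel₀ a0, one_smul]
  have zs : ∀ s : F, s = 1 ∨ s = -1 → ∃ y, ρ y u = u ∧ ρ y w = s • w := by
    rintro s (rfl | rfl)
    exacts [⟨1, by simp, by simp⟩, ⟨z, hz u hu, by simp [hz' w hw]⟩]
  refine ⟨(LinearEquiv.ofBijective φ bij).symm, fun f => ?_⟩
  have tr : ∀ g, f = (LinearEquiv.ofBijective φ bij).symm.symm.trans ((ρ g).trans (LinearEquiv.ofBijective φ bij).symm) ↔
      ∀ v, φ (f v) = v 0 • ρ g u + v 1 • ρ g w := fun g => by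
    rw [LinearEquiv.ext_iff]
    refine forall_congr' fun v => ?_
    rw [LinearEquiv.trans_apply, LinearEquiv.trans_apply, LinearEquiv.eq_symm_apply, LinearEquiv.symm_symm,
      LinearEquiv.ofBijective_apply, LinearEquiv.ofBijective_apply, hφ v, map_add, map_smul, map_smul]
  simp only [tr]
  constructor
  · rintro ⟨g, hg⟩
    by_cases gH : g ∈ H
    · obtain ⟨a, ha⟩ := su _ (h.inv g gH 0 u hu)
      obtain ⟨c, hc⟩ := sw _ (h.inv g gH 1 w hw)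
      have a0 : a ≠ 0 := by rintro rfl; exact u0 (by simpa using ha.symm)
      obtain ⟨y, y1, y2⟩ := ga a⁻¹ (inv_ne_zero a0)
      refine ⟨a, c * a, a0, key (t * (y * g)) ?_ _ ?_, .inl fun v => bij.1 ?_⟩
      · rw [rho_mul, rho_mul, ← ha, map_smul, y1, smul_smul, mul_inv_cancel₀ a0, one_smul, tw]
      · rw [rho_mul, rho_mul, ← hc, map_smul, y2, smul_smul, inv_inv, map_smul, tu]
      · rw [hg, hφ, ← ha, ← hc, smul_smul, smul_smul, mul_inv_cancel_right₀ a0]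
        simp [mul_comm]
    · obtain ⟨a, ha⟩ := sw _ ((h.sw gH).1 ▸ ⟨u, hu, rfl⟩ : ρ g u ∈ W 1)
      obtain ⟨c, hc⟩ := su _ ((h.sw gH).2 ▸ ⟨w, hw, rfl⟩ : ρ g w ∈ W 0)
      have a0 : a ≠ 0 := by rintro rfl; exact u0 (by simpa using ha.symm)
      obtain ⟨y, y1, y2⟩ := ga a a0
      refine ⟨a, c * a, a0, key (y * g) ?_ _ ?_, .inr fun v => bij.1 ?_⟩
      · rw [rho_mul, ← ha, map_smul, y2, smul_smul, mul_inv_cancel₀ a0, one_smul]
      · rw [rho_mul, ← hc, map_smul, y1, smul_smul]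
      · rw [hg, hφ, ← ha, ← hc, smul_smul, smul_smul, add_comm, mul_inv_cancel_right₀ a0]
        simp [mul_comm]
  · rintro ⟨a, c, a0, hc, hf⟩
    obtain ⟨y, y1, y2⟩ := ga a a0
    obtain ⟨x, x1, x2⟩ := zs c hc
    rcases hf with hf | hf
    · refine ⟨t * (y * x), fun v => ?_⟩
      rw [hf, hφ, rho_mul, rho_mul, rho_mul, rho_mul, x1, x2, map_smul, y1, y2, map_smul, map_smul, map_smul, tu, tw]
      simp [smul_smul, mul_comm]
    · refine ⟨y * x, fun v => ?_⟩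
      rw [hf, hφ, rho_mul, rho_mul, x1, x2, map_smul, y1, y2, add_comm]
      simp [smul_smul, mul_comm]

end Imp

theorem main (q : ℕ) [Fact q.Prime] {V : Type*} [AddCommGroup V] [Module (ZMod q) V] [Finite V] [Nontrivial V]
    [Finite G] (p : ℕ) [Fact p.Prime] (hG : IsPGroup p G)
    (ρ : G →* (V ≃ₗ[ZMod q] V)) (hρ : Function.Injective ρ)
    (hhalf : ∀ v w : V, v ≠ 0 → w ≠ 0 → Nat.card {u : V | ∃ g : G, ρ g v = u} = Nat.card {u : V | ∃ g : G, ρ g w = u}) :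
    ((IsCyclic G ∨ ∃ n : ℕ, Nonempty (G ≃* QuaternionGroup n)) ∧ ∀ v : V, v ≠ 0 → ∀ g : G, ρ g v = v → g = 1) ∨
    (Nat.card V = q ^ 2 ∧ ∃ m : ℕ, q = 2 ^ m - 1 ∧
      (Nonempty (G ≃* DihedralGroup (2 ^ m)) ∨ (Cfsg.IsQuasiDihedral G ∧ Nat.card G = 2 ^ (m + 2)))) ∨
    (Nat.card V = q ^ 2 ∧ (∃ m : ℕ, q = 2 ^ m + 1) ∧
      ∃ e : V ≃ₗ[ZMod q] (Fin 2 → ZMod q), ∀ f : (Fin 2 → ZMod q) ≃ₗ[ZMod q] (Fin 2 → ZMod q),
        (∃ g : G, f = e.symm.trans ((ρ g).trans e)) ↔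
        ∃ a s : ZMod q, a ≠ 0 ∧ (s = 1 ∨ s = -1) ∧
          ((∀ v, f v = ![a * v 0, s * a⁻¹ * v 1]) ∨ (∀ v, f v = ![s * a⁻¹ * v 1, a * v 0]))) ∨
    (Nat.card V = 81 ∧ q = 3 ∧ p = 2) := by
  have hp : p.Prime := Fact.out
  have hq : q.Prime := Fact.out
  have hh : Half ρ := fun v w hv hw => by
    have := hhalf v w hv hw
    rw [orb_card, orb_card] at this
    exact Nat.eq_of_mul_eq_mul_left (Nat.pos_of_ne_zero index_ne_zero_of_finite)
      ((index_mul_card _).trans (this ▸ (index_mul_card _).symm))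
  by_cases hns : ∀ v : V, v ≠ 0 → ∀ g : G, ρ g v = v → g = 1
  · refine .inl ⟨or_iff_not_imp_left.2 fun hc => ?_, hns⟩
    have hfc := fc_of_lin ρ hns
    have hlt : p < p ^ 2 := by nlinarith [hp.one_lt]
    have noE : ∀ E : Subgroup G, E.Normal → IsMulCommutative E → (∀ x ∈ E, x ^ p = 1) → Nat.card E ≠ p ^ 2 :=
      fun E _ h1 h2 h3 => H9.not_isCyclic_of_elementary h2 (h3 ▸ hlt) (hfc.isCyclic E h1)
    obtain rfl : p = 2 := by
      by_contra h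
      obtain ⟨E, -, hE, h1, h2⟩ := H9.exists_normal_rank_two h hG ⊤ (mt H9.isCyclic_iff_top.1 hc)
      exact noE E hE h1.1 h1.2 h2
    obtain ⟨m, a, b, hm, ha, hi, hb, h⟩ := (H9.cyclic_or_dqs hG noE).resolve_left hc
    obtain ⟨k, rfl⟩ : ∃ k, m = k + 2 := ⟨m - 2, by omega⟩
    have b2 : b ^ 2 ≠ 1 := fun e => hb (by
      rw [hfc.invol_eq e (fun x => hb (x ▸ one_mem _)) (y := a ^ 2 ^ (k + 1))
        (by rw [← pow_mul, ← pow_succ, ← ha, pow_orderOf_eq_one])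
        (pow_ne_one_of_lt_orderOf (by positivity) (by rw [ha]; exact Nat.pow_lt_pow_right (by norm_num) (by omega)))]
      exact pow_mem (mem_zpowers a) _)
    rcases h with h | h | h
    · exact absurd h.1 b2
    · exact ⟨2 ^ (k + 1), H6.equiv_quaternion_of_top (by rw [ha]; ring) (by rw [← pow_two, h.1]; rfl) h.2 hb (by
        rw [H9.closure_pair_eq, H9.sup_zpowers_eq_top_of_isCoatom (H9.isCoatom_of_index_eq_prime hi) hb])⟩
    · exact absurd h.2.1 b2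
  right
  have hV := Module.natCard_eq_pow_finrank (K := ZMod q) (V := V)
  rw [Nat.card_zmod] at hV
  have pq : p ≠ q := by
    rintro rfl
    letI : MulAction G V :=
      { smul := fun g v => ρ g v
        one_smul := fun v => by show ρ 1 _ = _; simp
        mul_smul := fun a b v => rho_mul ρ a b v }
    obtain ⟨v, hv, v0⟩ := hG.exists_fixed_point_of_prime_dvd_card_of_fixed_point V
      (hV ▸ dvd_pow_self p Module.finrank_pos.ne') (a := 0) (fun g => map_zero (ρ g))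
    have e : St ρ v = ⊤ := eq_top_iff.2 fun g _ => hv g
    refine hns fun w hw g _ => eq_one_of hρ fun x => ?_
    by_cases x0 : x = 0
    · simp [x0]
    · have := hh x v x0 v0.symm
      rw [e, card_top] at this
      exact mem_St.1 (eq_top_of_card_eq _ this ▸ mem_top g)
  have hirr := hh.irr hρ (fun L e => by
    obtain ⟨n, hn⟩ := IsPGroup.iff_card.1 (hG.to_subgroup L)
    rw [ZMod.natCast_eq_zero_iff, hn] at e
    exact pq ((Nat.prime_dvd_prime_iff_eq hq hp).1 (hq.dvd_of_dvd_pow e)).symm) hns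
  have hc : ¬ IsCyclic G := fun hc => hns fun v hv g hg => by
    by_contra g1
    refine hv (fpf_of_central hρ hirr (mem_center_iff.2 fun x => ?_) g1 hg)
    obtain ⟨y, hy⟩ := hc.exists_generator
    obtain ⟨i, rfl⟩ := hy g
    obtain ⟨j, rfl⟩ := hy x
    exact zpow_mul_comm y j i
  have imp : ∀ E : Subgroup G, E.Normal → IsMulCommutative E → (∀ x ∈ E, x ^ p = 1) → Nat.card E = p ^ 2 →
      ∃ (H : Subgroup G) (W : Fin p → Submodule (ZMod q) V), Imp ρ H W := fun E _ h1 h2 h3 => by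
    obtain ⟨H, W, a, b, c, d, e, f⟩ := imprim_of_normal_pp hG ρ hρ hirr E h1 h2 h3
    exact ⟨H, W, a, b, c, d, e, f⟩
  obtain rfl : p = 2 := by
    by_contra h
    obtain ⟨E, -, hE, h1, h2⟩ := H9.exists_normal_rank_two h hG ⊤ (mt H9.isCyclic_iff_top.1 hc)
    obtain ⟨H, W, I⟩ := imp E hE h1.1 h1.2 h2
    exact I.odd hp h hρ hh
  by_cases hI : ∃ (H : Subgroup G) (W : Fin 2 → Submodule (ZMod q) V), Imp ρ H W
  swap
  · exact .inl (dqs_case q hG hρ hh pq.symm hirr hns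
      ((H9.cyclic_or_dqs hG fun E hE h1 h2 h3 => hI (imp E hE h1 h2 h3)).resolve_left hc))
  right
  obtain ⟨H, W, I⟩ := hI
  obtain ⟨z, hz, hz'⟩ := I.exz hG hρ hirr
  have h2 : (2 : ZMod q) ≠ 0 := fun e =>
    pq ((Nat.prime_dvd_prime_iff_eq hq hp).1 ((ZMod.natCast_eq_zero_iff 2 q).1 (by exact_mod_cast e))).symm
  have s := fun u hu w hw => I.swap hh h2 hz hz' (u := u) (w := w) hu hw
  obtain ⟨b, hb⟩ := IsPGroup.iff_card.1 hG
  obtain ⟨a, -, ha⟩ := (Nat.dvd_prime_pow hp).1 (hb ▸ I.card_dvd s)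
  have hW := Module.natCard_eq_pow_finrank (K := ZMod q) (V := W 0)
  rw [Nat.card_zmod] at hW
  have cs := I.card_sq
  have e : q ^ Module.finrank (ZMod q) (W 0) = 2 ^ a + 1 := by
    have := Nat.card_pos (α := W 0)
    omega
  have a0 : 0 < a := Nat.pos_of_ne_zero (by
    rintro rfl
    exact pq ((Nat.Prime.pow_eq_iff hp).1 e).1.symm)
  rcases Cfsg.Agent.S3370.num hp hq a0 e with h | h | h
  · exact absurd h.1 pq.symm
  · rw [h.2, pow_one] at e hW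
    exact .inl ⟨by rw [cs, hW, pow_two], ⟨a, e⟩, I.plane hρ hh hz hz' s h.2⟩
  · obtain ⟨-, rfl, h⟩ := h
    rw [h] at hW
    exact .inr ⟨by rw [cs, hW]; rfl, rfl, rfl⟩

end H5HT
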