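import Mathlib

set_option autoImplicit false
open Subgroup

namespace H5J4

theorem trf {L : Type*} [Group L] [Finite L] (R : Sylow 3 L) (hR : ∀ a ∈ (R : Subgroup L),
    ∀ b ∈ (R : Subgroup L), a * b = b * a) {p : L} (hz : ∀ g, g * p = p * g)
    (hc : p ∈ commutator L) (h3 : p ^ 3 = 1) : p = 1 := by
  have : Fact (Nat.Prime 3) := ⟨by norm_num⟩
  let _ : CommGroup (R : Subgroup L) :=
    { (inferInstance : Group (R : Subgroup L)) with
      mul_comm := fun a b => Subtype.ext (hR _ a.2 _ b.2) }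
  have h1 := MonoidHom.transfer_eq_pow (MonoidHom.id (R : Subgroup L)) p (fun k g _ => by
    have : Commute g p := hz g
    rw [mul_assoc, ← (this.pow_right k).eq, inv_mul_cancel_left])
  have h2 : MonoidHom.transfer (MonoidHom.id (R : Subgroup L)) p = 1 :=
    Abelianization.commutator_subset_ker _ hc
  rw [h2] at h1
  have h4 : p ^ (R : Subgroup L).index = 1 := (congrArg Subtype.val h1).symm
  have := pow_gcd_eq_one.2 ⟨h3, h4⟩
  rwa [(Nat.coprime_iff_gcd_eq_one).1 ((Nat.Prime.coprime_iff_not_dvd (by norm_num)).2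
    R.not_dvd_index), pow_one] at this

theorem lt3 {L : Type*} [Group L] [Finite L] {H K : Subgroup L} (hK : IsPGroup 3 K) (h : H < K) :
    3 * Nat.card H ∣ Nat.card K := by
  have : Fact (Nat.Prime 3) := ⟨by norm_num⟩
  obtain ⟨k, hk⟩ := IsPGroup.iff_card.1 hK
  obtain ⟨j, hj⟩ := IsPGroup.iff_card.1 (hK.to_le h.le)
  have : j < k := by
    by_contra e
    exact h.ne (eq_of_le_of_card_ge h.le (by
      rw [hk, hj]; exact Nat.pow_le_pow_right (by norm_num) (by omega)))
  rw [hk, hj, ← pow_succ']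
  exact pow_dvd_pow _ this

theorem syl27 {L : Type*} [Group L] [Finite L] (R : Sylow 3 L) (h : ¬ 81 ∣ Nat.card L) :
    Nat.card (R : Subgroup L) ∣ 27 := by
  have : Fact (Nat.Prime 3) := ⟨by norm_num⟩
  obtain ⟨k, hk⟩ := IsPGroup.iff_card.1 R.isPGroup'
  have d := card_subgroup_dvd_card (R : Subgroup L)
  rw [hk] at d ⊢
  refine pow_dvd_pow 3 (show k ≤ 3 from ?_)
  by_contra e
  exact h ((pow_dvd_pow 3 (show 4 ≤ k by omega)).trans d)

/-- the outer element cannot centralize the normal subgroup of order three -/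
theorem inv3 {D A : Type*} [Group D] [Finite D] [Group A] (π : D →* A) (hπ : Function.Surjective π)
    (c3 : Nat.card π.ker = 3) (hz : ∀ n ∈ π.ker, ∀ g, g * n = n * g) (hc : π.ker ≤ commutator D)
    (h81 : ¬ 81 ∣ Nat.card D) {α β σ : A} (a3 : α ^ 3 = 1) (b3 : β ^ 3 = 1) (ab : α * β = β * α)
    (a1 : α ≠ 1) (b1 : β ∉ zpowers α) (sa : σ * α * σ⁻¹ = α) (sb : σ * β * σ⁻¹ = β⁻¹) : False := by
  have : Fact (Nat.Prime 3) := ⟨by norm_num⟩
  obtain ⟨a, rfl⟩ := hπ α
  obtain ⟨b, rfl⟩ := hπ β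
  obtain ⟨s, rfl⟩ := hπ σ
  have k3 : ∀ n ∈ π.ker, n ^ 3 = 1 := fun n hn => by
    have := pow_card_eq_one' (x := (⟨n, hn⟩ : π.ker))
    rw [c3] at this
    exact congrArg Subtype.val this
  have m0 : a * b * a⁻¹ * b⁻¹ ∈ π.ker := by
    simp only [MonoidHom.mem_ker, map_mul, map_inv, ab]; group
  have m1 : a⁻¹ * (s * a * s⁻¹) ∈ π.ker := by
    simp only [MonoidHom.mem_ker, map_mul, map_inv, sa]; group
  have m2 : b * (s * b * s⁻¹) ∈ π.ker := by
    simp only [MonoidHom.mem_ker, map_mul, map_inv, sb]; group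
  have cab : a * b = b * a := by
    generalize h1 : a⁻¹ * (s * a * s⁻¹) = n1 at m1
    generalize h2 : b * (s * b * s⁻¹) = n2 at m2
    have e1 : s * a * s⁻¹ = a * n1 := by rw [← h1]; group
    have e2 : s * b * s⁻¹ = b⁻¹ * n2 := by rw [← h2]; group
    have e3 : a * b * a⁻¹ * b⁻¹ = a * b⁻¹ * a⁻¹ * b := by
      calc _ = s * (a * b * a⁻¹ * b⁻¹) * s⁻¹ := by rw [hz _ m0]; group
        _ = (s * a * s⁻¹) * (s * b * s⁻¹) * (s * a * s⁻¹)⁻¹ * (s * b * s⁻¹)⁻¹ := by group
        _ = a * (n1 * (b⁻¹ * n2)) * n1⁻¹ * a⁻¹ * n2⁻¹ * b := by rw [e1, e2]; group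
        _ = a * b⁻¹ * (n2 * a⁻¹) * n2⁻¹ * b := by rw [← hz _ m1]; group
        _ = _ := by rw [← hz _ m2]; group
    generalize hk : a * b * a⁻¹ * b⁻¹ = κ at m0 e3
    have e4 : κ * κ = 1 := by
      calc _ = (a * b⁻¹ * a⁻¹) * (b * κ) := by nth_rw 1 [e3]; group
        _ = (a * b⁻¹ * a⁻¹) * (κ * b) := by rw [hz _ m0]
        _ = 1 := by rw [← hk]; group
    have e5 : κ = 1 := by
      have := k3 _ m0
      rwa [pow_succ, pow_two, e4, one_mul] at this
    rw [e5] at hk
    calc _ = a * b * a⁻¹ * b⁻¹ * (b * a) := by group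
      _ = _ := by rw [hk, one_mul]
  let S : Set D := (π.ker : Set D) ∪ {a, b}
  have cS : ∀ x ∈ S, ∀ y ∈ S, x * y = y * x := by
    rintro x (hx | rfl | rfl) y (hy | rfl | rfl)
    exacts [hz _ hy _, (hz _ hx _).symm, (hz _ hx _).symm, hz _ hy _, rfl, cab, hz _ hy _, cab.symm,
      rfl]
  have cK : ∀ x ∈ closure S, ∀ y ∈ closure S, x * y = y * x := fun x hx y hy =>
    closure_induction₂ (p := fun x y _ _ => Commute x y) (fun x y hx hy => cS x hx y hy)
      (fun _ _ => Commute.one_left _) (fun _ _ => Commute.one_right _)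
      (fun _ _ _ _ _ _ h1 h2 => h1.mul_left h2) (fun _ _ _ _ _ _ h1 h2 => h1.mul_right h2)
      (fun _ _ _ _ h => h.inv_left) (fun _ _ _ _ h => h.inv_right) hx hy
  have p9 : ∀ x ∈ closure S, x ^ 9 = 1 := by
    intro x hx
    have q : ∀ y : D, π y ^ 3 = 1 → y ^ 9 = 1 := fun y hy => by
      rw [show 9 = 3 * 3 from rfl, pow_mul]
      exact k3 _ (by rw [MonoidHom.mem_ker, map_pow, hy])
    induction hx using closure_induction with
    | mem x hx =>
      rcases hx with hx | rfl | rfl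
      · exact q x (by rw [show π x = 1 from hx, one_pow])
      · exact q _ a3
      · exact q _ b3
    | one => exact one_pow _
    | mul x y hx hy h1 h2 => rw [Commute.mul_pow (cK x hx y hy), h1, h2, one_mul]
    | inv x _ h => rw [inv_pow, h, inv_one]
  have pK : IsPGroup 3 (closure S) := fun x => ⟨2, Subtype.ext (p9 x x.2)⟩
  obtain ⟨R, hR⟩ := pK.exists_le_sylow
  have l0 : π.ker ≤ closure S := fun x hx => subset_closure (Or.inl hx)
  have l1 : (zpowers (π a)).comap π ⊓ closure S < closure S :=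
    lt_of_le_of_ne inf_le_right fun e =>
      b1 ((e.ge (subset_closure (Or.inr (Or.inr rfl)) : b ∈ closure S)).1)
  have l2 : π.ker < (zpowers (π a)).comap π ⊓ closure S :=
    lt_of_le_of_ne (le_inf (fun x hx => by
      rw [mem_comap, show π x = 1 from hx]; exact one_mem _) l0) fun e =>
      a1 (e.ge ⟨mem_zpowers _, subset_closure (Or.inr (Or.inl rfl))⟩)
  have d1 := lt3 pK l1
  have d2 := lt3 (pK.to_le inf_le_right) l2
  have d3 := Nat.le_of_dvd (by norm_num) (syl27 R h81)
  have d4 := Nat.le_of_dvd Nat.card_pos d1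
  have d5 := Nat.le_of_dvd Nat.card_pos d2
  have e : closure S = R := eq_of_le_of_card_ge hR (by omega)
  have : π.ker = ⊥ := eq_bot_iff.2 fun n hn =>
    trf R (e ▸ cK) (hz n hn) (hc hn) (k3 n hn)
  rw [this, card_bot] at c3
  omega

/-- orbits of a non-abelian group of order 27 on which the centre acts freely -/
theorem nine {R X : Type*} [Group R] [Finite R] [Finite X] [MulAction R X] (P : Subgroup R)
    [P.Normal] (cP : Nat.card P = 3) (cR : Nat.card R ∣ 27) (na : ¬ ∀ a b : R, a * b = b * a)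
    (hf : ∀ x : X, ∀ p ∈ P, p • x = x → p = 1) : 9 ∣ Nat.card X := by
  have : Fact (Nat.Prime 3) := ⟨by norm_num⟩
  have ab : ∀ (K : Subgroup R) [K.Normal], K.index ∣ 9 → ∀ a b : R, a * b * a⁻¹ * b⁻¹ ∈ K := by
    intro K _ hK a b
    have cm : IsMulCommutative (R ⧸ K) := by
      obtain ⟨k, h1, hk⟩ := (Nat.dvd_prime_pow (p := 3) (m := 2) (by norm_num)).1 hK
      interval_cases k
      · have := (Nat.card_eq_one_iff_unique.1 hk).1
        exact ⟨⟨fun a b => Subsingleton.elim _ _⟩⟩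
      · have := isCyclic_of_prime_card (p := 3) hk
        exact IsCyclic.isMulCommutative
      · exact IsPGroup.isMulCommutative_of_card_eq_prime_sq hk
    rw [← QuotientGroup.eq_one_iff]
    simp only [QuotientGroup.mk_mul, QuotientGroup.mk_inv]
    rw [cm.1.1 (a : R ⧸ K) b]; group
  have iP := P.card_mul_index
  have key : ∀ x : X, 9 ∣ Nat.card (MulAction.orbit R x) := by
    intro x
    rw [Nat.card_congr (MulAction.orbitEquivQuotientStabilizer R x), ← index_eq_card]
    have d := (index_dvd_card (MulAction.stabilizer R x)).trans cR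
    obtain ⟨k, h1, hk⟩ := (Nat.dvd_prime_pow (p := 3) (m := 3) (by norm_num)).1 d
    by_contra e
    have k1 : k ≤ 1 := by
      by_contra k2
      exact e (hk ▸ pow_dvd_pow 3 (show 2 ≤ k by omega))
    have hn : (MulAction.stabilizer R x).Normal := by
      interval_cases k
      · rw [index_eq_one.1 hk]; infer_instance
      · refine normal_of_index_eq_minFac_card ?_
        obtain ⟨j, -, hj⟩ := (Nat.dvd_prime_pow (p := 3) (m := 3) (by norm_num)).1 cR
        have : j ≠ 0 := by
          rintro rfl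
          rw [cP, hj] at iP
          omega
        rw [hk, hj, Nat.pow_minFac this]; norm_num
    refine na fun a b => ?_
    have := hf x _ (ab P (Nat.dvd_of_mul_dvd_mul_left (by norm_num : 0 < 3) (by
      rw [← cP, iP, cP]; exact cR)) a b) (ab _ (hk ▸ pow_dvd_pow 3 (show k ≤ 2 by omega)) a b)
    calc _ = a * b * a⁻¹ * b⁻¹ * (b * a) := by group
      _ = _ := by rw [this, one_mul]
  have := Fintype.ofFinite (MulAction.orbitRel.Quotient R X)
  rw [Nat.card_congr (MulAction.selfEquivSigmaOrbits R X), Nat.card_sigma]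
  exact Finset.dvd_sum fun q _ => key _

end H5J4
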