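import Cfsg.Agent.H5.J4a

set_option autoImplicit false
open Subgroup

namespace H5J4

theorem fixq {C : Type*} [Group C] [Finite C] {y : C} (hy : orderOf y = 11) (K : Subgroup C)
    (hK : y ∈ normalizer (K : Set C)) :
    Nat.card K ≡ Nat.card ↥(K ⊓ centralizer {y}) [MOD 11] := by
  have : Fact (Nat.Prime 11) := ⟨by norm_num⟩
  have hp : IsPGroup 11 (zpowers (⟨y, hK⟩ : normalizer (K : Set C))) :=
    IsPGroup.of_card (n := 1) (by rw [Nat.card_zpowers, ← orderOf_coe, hy]; rfl)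
  let _ : MulAction (zpowers (⟨y, hK⟩ : normalizer (K : Set C))) K :=
    MulAction.compHom K (K.normalizerMonoidHom.comp (Subgroup.subtype _))
  have := hp.card_modEq_card_fixedPoints K
  convert this using 1
  refine Nat.card_congr ⟨fun x => ⟨⟨x.1, x.2.1⟩, ?_⟩, fun x => ⟨x.1.1, x.1.2, ?_⟩, fun _ => rfl,
    fun _ => rfl⟩
  · rintro ⟨_, k, rfl⟩
    have c : Commute y x.1 := (mem_centralizer_singleton_iff.1 x.2.2).symm
    refine Subtype.ext ?_
    change ((⟨y, hK⟩ : normalizer (K : Set C)) ^ k).1 * x.1 *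
      ((⟨y, hK⟩ : normalizer (K : Set C)) ^ k).1⁻¹ = x.1
    rw [SubgroupClass.coe_zpow, (c.zpow_left k).eq, mul_inv_cancel_right]
  · have e : y * x.1.1 * y⁻¹ = x.1.1 := congrArg Subtype.val (x.2 ⟨_, mem_zpowers _⟩)
    exact mem_centralizer_singleton_iff.2 (mul_inv_eq_iff_eq_mul.1 e).symm

theorem core {C A : Type*} [Group C] [Finite C] [Group A] (Q N M : Subgroup C) [Q.Normal]
    [N.Normal] (hQN : Q ≤ N) (cQ : Nat.card Q = 2 ^ 13) (cN : Nat.card N = 3 * Nat.card Q)
    (h2c : centralizer (Q : Set C) ≤ Q) (e : C ⧸ N ≃* A) (cA : Nat.card A = 887040)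
    (hc : ⁅M, N⁆ ≤ Q) (hp : N ≤ ⁅M, M⁆ ⊔ Q)
    {α β σ : A} (a3 : α ^ 3 = 1) (b3 : β ^ 3 = 1) (ab : α * β = β * α)
    (a1 : α ≠ 1) (b1 : β ∉ zpowers α) (sa : σ * α * σ⁻¹ = α) (sb : σ * β * σ⁻¹ = β⁻¹) :
    ∃ P ≤ N, Nat.card P = 3 ∧ Nat.card ↥(Q ⊓ centralizer (P : Set C)) = 2 ∧
      normalizer (P : Set C) ≠ centralizer (P : Set C) ∧
      P ≤ ⁅centralizer (P : Set C), centralizer (P : Set C)⁆ := by
  have : Fact (Nat.Prime 3) := ⟨by norm_num⟩
  have : Fact (Nat.Prime 2) := ⟨by norm_num⟩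
  have : Fact (Nat.Prime 11) := ⟨by norm_num⟩
  have cC : Nat.card C = 887040 * (3 * 2 ^ 13) := by
    rw [card_eq_card_quotient_mul_card_subgroup N, Nat.card_congr e.toEquiv, cA, cN, cQ]
  have cD := card_eq_card_quotient_mul_card_subgroup Q
  rw [cC, cQ] at cD
  obtain ⟨P0⟩ : Nonempty (Sylow 3 N) := inferInstance
  have cP0 : Nat.card (P0 : Subgroup N) = 3 := by
    rw [P0.card_eq_multiplicity, cN, cQ, Nat.factorization_mul (by norm_num) (by norm_num),
      Nat.factorization_pow]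
    simp [Nat.Prime.factorization Nat.prime_two, Nat.Prime.factorization Nat.prime_three]
  have fr := P0.normalizer_sup_eq_top
  have cP : Nat.card ((P0 : Subgroup N).map N.subtype) = 3 := by rw [card_subtype, cP0]
  have PN : (P0 : Subgroup N).map N.subtype ≤ N := map_subtype_le _
  generalize (P0 : Subgroup N).map N.subtype = P at fr cP PN
  have p3 : ∀ p ∈ P, p ^ 3 = 1 := fun p hp => by
    have := pow_card_eq_one' (x := (⟨p, hp⟩ : P))
    rw [cP] at this
    exact congrArg Subtype.val this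
  have q2 : ∀ q ∈ Q, q ^ 8192 = 1 := fun q hq => by
    have := pow_card_eq_one' (x := (⟨q, hq⟩ : Q))
    rw [cQ] at this
    exact congrArg Subtype.val this
  have pq : ∀ p ∈ P, p ∈ Q → p = 1 := fun p h1 h2 => by
    have := pow_gcd_eq_one.2 ⟨p3 p h1, q2 p h2⟩
    rwa [show Nat.gcd 3 8192 = 1 by norm_num, pow_one] at this
  have NPQ : P ⊔ Q = N := by
    refine eq_of_le_of_card_ge (sup_le PN hQN) (Nat.le_of_dvd Nat.card_pos ?_)
    rw [cN, cQ]
    exact Nat.Coprime.mul_dvd_of_dvd_of_dvd (by norm_num) (cP ▸ card_dvd_of_le le_sup_left)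
      (cQ ▸ card_dvd_of_le le_sup_right)
  have fr' : normalizer (P : Set C) ⊔ Q = ⊤ := by
    rw [eq_top_iff, ← fr, ← NPQ]
    exact sup_le le_sup_left (sup_le (le_normalizer.trans le_sup_left) le_sup_right)
  have dec : ∀ c : C, ∃ n ∈ normalizer (P : Set C), ∃ q ∈ Q, n * q = c := fun c =>
    mem_sup_of_normal_right.1 (fr'.ge (mem_top c))
  set L := centralizer (P : Set C) with hL
  have PL : P ≤ L := by
    have := isCyclic_of_prime_card cP
    have : IsMulCommutative P := IsCyclic.isMulCommutative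
    exact le_centralizer P
  let ρ := QuotientGroup.mk' Q
  have ρq : ∀ {q}, ρ q = 1 ↔ q ∈ Q := QuotientGroup.eq_one_iff _
  have ML : M.map ρ ≤ L.map ρ := by
    rintro _ ⟨m, hm, rfl⟩
    obtain ⟨n, hn, q, hq, rfl⟩ := dec m
    have e1 : ρ (n * q) = ρ n := by rw [map_mul, ρq.2 hq, mul_one]
    refine ⟨n, fun x hx => ?_, e1.symm⟩
    have h1 := ρq.2 (hc (commutator_mem_commutator hm (PN hx)))
    rw [map_commutatorElement, e1, ← map_commutatorElement] at h1
    have h2 := pq _ (mul_mem ((mem_normalizer_iff.1 hn x).1 hx) (inv_mem hx)) (ρq.1 h1)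
    exact (mul_inv_eq_iff_eq_mul.1 (mul_inv_eq_one.1 h2)).symm
  have PLL : P ≤ ⁅L, L⁆ := by
    intro p hP
    have h1 : ρ p ∈ ⁅L, L⁆.map ρ := by
      obtain ⟨m, hm, q, hq, e⟩ := mem_sup_of_normal_right.1 (hp (PN hP))
      rw [← e, map_mul, ρq.2 hq, mul_one, map_commutator]
      exact commutator_mono ML ML (by rw [← map_commutator]; exact ⟨m, hm, rfl⟩)
    obtain ⟨l, hl, e⟩ := h1
    have h2 : p⁻¹ * l ∈ Q := ρq.1 (by rw [map_mul, map_inv, e, inv_mul_cancel])
    have lL : l ∈ L := L.commutator_le_self hl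
    have c : Commute p (p⁻¹ * l) := (Commute.refl p).inv_right.mul_right (lL p hP)
    have h3 := c.mul_pow 8192
    rw [q2 _ h2, mul_one, mul_inv_cancel_left] at h3
    have h4 := pow_mem (pow_mem hl 8192) 2
    rwa [h3, ← pow_mul, show 8192 * 2 = 3 * 5461 + 1 from rfl, pow_succ, pow_mul, p3 p hP, one_pow,
      one_mul] at h4
  obtain ⟨p, hP, p1⟩ : ∃ p ∈ P, p ≠ 1 := by
    by_contra h
    push Not at h
    rw [(eq_bot_iff_forall _).2 h, card_bot] at cP
    omega
  refine ⟨P, PN, cP, ?_, fun eq => ?_, PLL⟩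
  · obtain ⟨R⟩ : Nonempty (Sylow 3 L) := inferInstance
    have na : ¬ ∀ a b : (R : Subgroup L), a * b = b * a := fun h => p1 (congrArg Subtype.val
      (trf R (fun a ha b hb => congrArg Subtype.val (h ⟨a, ha⟩ ⟨b, hb⟩)) (p := ⟨p, PL hP⟩)
        (fun g => Subtype.ext (g.2 p hP).symm) (by
          have := PLL hP
          rw [← map_subtype_commutator] at this
          obtain ⟨x, hx, e⟩ := this
          rwa [show (⟨p, PL hP⟩ : L) = x from Subtype.ext e.symm]) (Subtype.ext (p3 p hP))))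
    have cR := syl27 R (fun d => by
      have := d.trans (card_subgroup_dvd_card L)
      rw [cC] at this
      norm_num at this)
    have nP : (P.subgroupOf L).Normal := ⟨fun x hx g => by
      change g.1 * x.1 * g.1⁻¹ ∈ P
      have e : x.1 * g.1 = g.1 * x.1 := g.2 _ hx
      rw [← e, mul_inv_cancel_right]; exact hx⟩
    have cP' : Nat.card (P.subgroupOf L) = 3 := by
      rw [Nat.card_congr (subgroupOfEquivOfLe PL).toEquiv, cP]
    have PR : P.subgroupOf L ≤ R := (IsPGroup.of_card (n := 1) cP').le_sylow_of_normal R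
    let X := {x : C // x ∈ Q ∧ x ∉ L}
    let _ : MulAction (R : Subgroup L) X :=
      { smul := fun r x => ⟨r.1.1 * x.1 * r.1.1⁻¹, Normal.conj_mem inferInstance _ x.2.1 _,
          fun h => x.2.2 (by
            have := mul_mem (mul_mem (inv_mem r.1.2) h) r.1.2
            simpa [mul_assoc] using this)⟩
        one_smul := fun x => Subtype.ext (by change (1 : C) * x.1 * 1⁻¹ = _; simp)
        mul_smul := fun a b x => Subtype.ext (by
          change (a.1.1 * b.1.1) * x.1 * (a.1.1 * b.1.1)⁻¹ =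
            a.1.1 * (b.1.1 * x.1 * b.1.1⁻¹) * a.1.1⁻¹
          group) }
    have h9 : 9 ∣ Nat.card X := nine ((P.subgroupOf L).subgroupOf R)
      (by rw [Nat.card_congr (subgroupOfEquivOfLe PR).toEquiv, cP']) cR na (fun x r hr h => by
        by_contra r1
        have e1 : r.1.1 * x.1 * r.1.1⁻¹ = x.1 := congrArg Subtype.val h
        have c : Commute r.1.1 x.1 := mul_inv_eq_iff_eq_mul.1 e1
        have r2 : r.1.1 ≠ 1 := fun e => r1 (Subtype.ext (Subtype.ext e))
        have zP : zpowers r.1.1 = P := eq_of_le_of_card_ge ((zpowers_le).2 hr) (by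
          rw [Nat.card_zpowers, orderOf_eq_prime (p3 r.1.1 hr) r2, cP])
        refine x.2.2 fun y hy => ?_
        obtain ⟨k, rfl⟩ := zP.ge hy
        exact (c.zpow_left k).eq)
    have cX : Nat.card ↥(Q ⊓ L) + Nat.card X = 2 ^ 13 := by
      classical
      rw [← cQ, ← Nat.card_sum]
      refine Nat.card_congr ((Equiv.sumCongr ?_ ?_).trans (Equiv.sumCompl fun x : Q => x.1 ∈ L))
      · exact ⟨fun x => ⟨⟨x.1, x.2.1⟩, x.2.2⟩, fun x => ⟨x.1.1, x.1.2, x.2⟩, fun _ => rfl,
          fun _ => rfl⟩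
      · exact ⟨fun x => ⟨⟨x.1, x.2.1⟩, x.2.2⟩, fun x => ⟨x.1.1, x.1.2, x.2⟩, fun _ => rfl,
          fun _ => rfl⟩
    have pw : ∀ K : Subgroup C, ∃ i ≤ 13, Nat.card ↥(Q ⊓ K) = 2 ^ i := fun K =>
      (Nat.dvd_prime_pow Nat.prime_two).1 (cQ ▸ card_dvd_of_le inf_le_left)
    have full : ∀ K : Subgroup C, Nat.card ↥(Q ⊓ K) = 2 ^ 13 → Q ≤ K := fun K h =>
      (eq_of_le_of_card_ge (inf_le_left : Q ⊓ K ≤ Q) (by rw [h, cQ])).ge.trans inf_le_right
    obtain ⟨y0, hy0⟩ := exists_prime_orderOf_dvd_card' (G := normalizer (P : Set C)) 11 (by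
      have d1 := card_dvd_of_surjective (ρ.comp (normalizer (P : Set C)).subtype) (fun x => by
        obtain ⟨c, rfl⟩ := QuotientGroup.mk'_surjective Q x
        obtain ⟨n, hn, q, hq, rfl⟩ := dec c
        exact ⟨⟨n, hn⟩, by rw [map_mul, ρq.2 hq, mul_one]; rfl⟩)
      exact Dvd.dvd.trans (by omega) d1)
    have hy : orderOf y0.1 = 11 := by rw [orderOf_coe, hy0]
    have yQ : y0.1 ∈ normalizer (Q : Set C) := by rw [normalizer_eq_top]; trivial
    have yL : y0.1 ∈ normalizer (L : Set C) := mem_normalizer_fintype fun l hl x hx => by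
      have e := hl _ ((mem_normalizer_iff.1 (inv_mem y0.2) x).1 hx)
      calc _ = y0.1 * (y0.1⁻¹ * x * y0.1⁻¹⁻¹ * l) * y0.1⁻¹ := by group
        _ = _ := by rw [e]; group
    have m1 := fixq hy Q yQ
    have m2 := fixq hy (Q ⊓ L) (inf_normalizer_le_normalizer_inf ⟨yQ, yL⟩)
    obtain ⟨i, hi, ei⟩ := pw L
    obtain ⟨j, hj, ej⟩ := pw (centralizer {y0.1})
    obtain ⟨k, hk, ek⟩ := pw (L ⊓ centralizer {y0.1})
    have j13 : j ≠ 13 := by
      rintro rfl
      have h1 := q2 _ (h2c fun q hq => mem_centralizer_singleton_iff.1 (full _ ej hq))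
      have := orderOf_dvd_of_pow_eq_one h1
      rw [hy] at this
      norm_num at this
    have i13 : i ≠ 13 := by
      rintro rfl
      exact p1 (pq p hP (h2c fun q hq => (full _ ei hq p hP).symm))
    have kj : 2 ^ k ≤ 2 ^ j := by
      rw [← ek, ← ej]
      exact card_le_of_le (inf_le_inf_left _ inf_le_right)
    rw [inf_assoc, ek, ei] at m2
    rw [ej, cQ] at m1
    rw [ei] at cX ⊢
    have j3 : j = 3 := by
      unfold Nat.ModEq at m1
      interval_cases j <;> omega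
    subst j3
    have k3 : k ≤ 3 := (Nat.pow_le_pow_iff_right (by norm_num)).1 kj
    unfold Nat.ModEq at m2
    interval_cases i <;> interval_cases k <;> omega
  · let π : C ⧸ Q →* A := e.toMonoidHom.comp (QuotientGroup.map Q N (MonoidHom.id C) hQN)
    have πρ : ∀ c, π (ρ c) = e (c : C ⧸ N) := fun c => rfl
    have kπ : π.ker = P.map ρ := by
      ext x
      obtain ⟨c, rfl⟩ := QuotientGroup.mk'_surjective Q x
      rw [MonoidHom.mem_ker, πρ, EmbeddingLike.map_eq_one_iff, QuotientGroup.eq_one_iff]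
      constructor
      · intro h
        obtain ⟨n, hn, q, hq, rfl⟩ := mem_sup_of_normal_right.1 (NPQ.ge h)
        exact ⟨n, hn, by rw [map_mul, ρq.2 hq, mul_one]⟩
      · rintro ⟨n, hn, h⟩
        have : n⁻¹ * c ∈ Q := ρq.1 (by rw [map_mul, map_inv, h, inv_mul_cancel])
        simpa using mul_mem (PN hn) (hQN this)
    refine inv3 π (fun x => ?_) ?_ ?_ ?_ (by omega) a3 b3 ab a1 b1 sa sb
    · obtain ⟨c, hc⟩ := QuotientGroup.mk_surjective (e.symm x)
      exact ⟨ρ c, by rw [πρ, hc, e.apply_symm_apply]⟩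
    · rw [kπ]
      have d := card_dvd_of_surjective (ρ.subgroupMap P) (ρ.subgroupMap_surjective P)
      rw [cP] at d
      refine ((Nat.dvd_prime Nat.prime_three).1 d).resolve_left fun h => ?_
      exact p1 (pq p hP (ρq.1 ((card_eq_one.1 h).le ⟨p, hP, rfl⟩)))
    · rw [kπ]
      rintro _ ⟨n, hn, rfl⟩ g
      obtain ⟨c, rfl⟩ := QuotientGroup.mk'_surjective Q g
      obtain ⟨l, hl, q, hq, rfl⟩ := dec c
      rw [map_mul, ρq.2 hq, mul_one, ← map_mul, ← map_mul, (eq.le hl) n hn]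
    · rw [kπ]
      rintro _ ⟨n, hn, rfl⟩
      have : ρ n ∈ ⁅L, L⁆.map ρ := ⟨n, PLL hn, rfl⟩
      rw [map_commutator] at this
      exact commutator_mono le_top le_top this

end H5J4
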