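import Cfsg.Agent.H5.J4b
import Cfsg.Agent.H16.Gq
import Cfsg.Agent.H1.Cores
import Cfsg.Prelude.Def_JankoFourType

set_option autoImplicit false
open Subgroup Cfsg

namespace H5J4

theorem pc {C S : Type*} [Group C] [Finite C] [Group S] [Finite S] [IsSimpleGroup S]
    (hna : ¬ IsMulCommutative S) (Q N : Subgroup C) [Q.Normal] [N.Normal]
    (cQ : Nat.card Q = 2 ^ 13) (cN : Nat.card N = 3 * Nat.card Q) (e : C ⧸ N ≃* MulAut S) :
    pCore 2 C = Q := by
  have : Fact (Nat.Prime 2) := ⟨by norm_num⟩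
  let f : C →* MulAut S := e.toMonoidHom.comp (QuotientGroup.mk' N)
  have fs : Function.Surjective f := e.surjective.comp (QuotientGroup.mk'_surjective N)
  have kf : f.ker = N := by
    ext x
    rw [MonoidHom.mem_ker]
    change e (x : C ⧸ N) = 1 ↔ _
    rw [map_eq_one_iff _ e.injective, QuotientGroup.eq_one_iff]
  have h1 : (pCore 2 C).map f = ⊥ :=
    H16.Gq.aq hna _ (Normal.map inferInstance f fs) ((H1.isPGroup_pCore 2).map f)
  have h2 : pCore 2 C ≤ N := by rw [← kf]; exact (Subgroup.map_eq_bot_iff _).1 h1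
  have h3 : Q ≤ pCore 2 C := H1.le_pCore (IsPGroup.of_card cQ)
  obtain ⟨k, hk⟩ := IsPGroup.iff_card.1 (H1.isPGroup_pCore (G := C) 2)
  have h4 := card_dvd_of_le h2
  rw [hk, cN, cQ] at h4
  have h5 : 2 ^ k ∣ 2 ^ 13 :=
    (Nat.Coprime.pow_left k (by norm_num : Nat.Coprime 2 3)).dvd_of_dvd_mul_left h4
  refine (eq_of_le_of_card_ge h3 ?_).symm
  rw [hk, cQ]; exact Nat.le_of_dvd (by norm_num) h5

theorem cmap {G : Type*} [Group G] (C : Subgroup G) (P : Subgroup C) :
    C ⊓ centralizer ((P.map C.subtype : Subgroup G) : Set G) =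
      (centralizer (P : Set C)).map C.subtype := by
  ext x
  constructor
  · rintro ⟨h1, h2⟩
    exact ⟨⟨x, h1⟩, fun p hp => Subtype.ext (h2 p.1 ⟨p, hp, rfl⟩), rfl⟩
  · rintro ⟨c, hc, rfl⟩
    refine ⟨c.2, ?_⟩
    rintro _ ⟨p, hp, rfl⟩
    exact congrArg Subtype.val (hc p hp)

theorem xe {A B : Type*} [Group A] [Group B] {p : ℕ} (h : IsExtraspecial p A) (e : A ≃* B) :
    IsExtraspecial p B := by
  obtain ⟨⟨h1, h2, h3⟩, h4⟩ := h
  have hz : center B = (center A).map e.toMonoidHom := by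
    ext b
    obtain ⟨a, rfl⟩ := e.surjective b
    constructor
    · intro hb
      exact ⟨a, mem_center_iff.2 fun g => e.injective (by
        rw [map_mul, map_mul]; exact mem_center_iff.1 hb _), rfl⟩
    · rintro ⟨c, hc, hca⟩
      refine mem_center_iff.2 fun g => ?_
      obtain ⟨g, rfl⟩ := e.surjective g
      rw [← hca]
      change e g * e c = e c * e g
      rw [← map_mul, ← map_mul, mem_center_iff.1 hc]
  refine ⟨⟨h1.of_equiv e, ?_, ?_⟩, ?_⟩
  · rw [hz, ← h2]
    exact le_antisymm (fun b hb => ⟨e.symm b,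
      frattini_le_comap_frattini_of_surjective (φ := e.symm.toMonoidHom) e.symm.surjective hb,
      e.apply_symm_apply b⟩) (map_le_iff_le_comap.2
        (frattini_le_comap_frattini_of_surjective (φ := e.toMonoidHom) e.surjective))
  · rw [hz, ← h3, _root_.commutator_def, _root_.commutator_def, map_commutator,
      map_top_of_surjective _ e.surjective]
  · rw [hz, ← h4]
    exact (Nat.card_congr ((center A).equivMapOfInjective _ e.injective).toEquiv).symm

theorem jft0 {G : Type*} [Group G] [Finite G] [IsSimpleGroup ↥Spor.M22]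
    (hna : ¬ IsMulCommutative ↥Spor.M22) (cA : Nat.card (MulAut ↥Spor.M22) = 887040)
    (f22 : ∃ (a b : ↥Spor.M22) (σ : MulAut ↥Spor.M22), a ^ 3 = 1 ∧ b ^ 3 = 1 ∧ a * b = b * a ∧
      a ≠ 1 ∧ b ∉ zpowers a ∧ σ a = a ∧ σ b = b⁻¹)
    (t : G) (ht : orderOf t = 2) (Q N M : Subgroup (centralizer ({t} : Set G))) [Q.Normal]
    [N.Normal] (hQN : Q ≤ N) (hQ : IsExtraspecial 2 Q) (cQ : Nat.card Q = 2 ^ 13)
    (cN : Nat.card N = 3 * Nat.card Q)
    (h2c : centralizer (Q : Set (centralizer ({t} : Set G))) ≤ Q)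
    (e : centralizer ({t} : Set G) ⧸ N ≃* MulAut ↥Spor.M22)
    (hc : ⁅M, N⁆ ≤ Q) (hp : N ≤ ⁅M, M⁆ ⊔ Q) : IsOfJankoFourTypeAt t := by
  obtain ⟨a, b, σ, a3, b3, ab, a1, b1, sa, sb⟩ := f22
  have ci := H16.Gq.conj_inj hna
  have cj : ∀ x, σ * MulAut.conj x * σ⁻¹ = MulAut.conj (σ x) := fun x => by
    ext y
    simp [MulAut.conj_apply]
  obtain ⟨P, hPN, cP, cF, hne, hPc⟩ := core Q N M hQN cQ cN h2c e cA hc hp
    (α := MulAut.conj a) (β := MulAut.conj b) (σ := σ)
    (by rw [← map_pow, a3, map_one]) (by rw [← map_pow, b3, map_one])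
    (by rw [← map_mul, ab, map_mul]) (fun h => a1 (ci (h.trans (map_one _).symm)))
    (fun h => by
      obtain ⟨k, hk⟩ := mem_zpowers_iff.1 h
      exact b1 (mem_zpowers_iff.2 ⟨k, ci (by rw [map_zpow, hk])⟩))
    (by rw [cj, sa]) (by rw [cj, sb, map_inv])
  have hpc := pc hna Q N cQ cN e
  have hE : twoCoreOfCentralizer t = Q.map (centralizer ({t} : Set G)).subtype := by
    rw [twoCoreOfCentralizer, hpc]
  have inj := (centralizer ({t} : Set G)).subtype_injective
  have cm : ∀ K : Subgroup (centralizer ({t} : Set G)),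
      Nat.card (K.map (centralizer ({t} : Set G)).subtype) = Nat.card K := fun K =>
    (Nat.card_congr (K.equivMapOfInjective _ inj).toEquiv).symm
  have hsub : (N.map (centralizer ({t} : Set G)).subtype).subgroupOf (centralizer ({t} : Set G)) = N :=
    comap_map_eq_self_of_injective inj N
  have tC : t ∈ centralizer ({t} : Set G) := mem_centralizer_singleton_iff.2 rfl
  have tc : ∀ s : Set (centralizer ({t} : Set G)), (⟨t, tC⟩ : centralizer ({t} : Set G)) ∈ centralizer s :=
    fun s c _ => Subtype.ext (mem_centralizer_singleton_iff.1 c.2)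
  refine ⟨P.map (centralizer ({t} : Set G)).subtype, ht, ?_, ?_, ?_,
    ⟨N.map (centralizer ({t} : Set G)).subtype, ?_, map_subtype_le _, ?_, ?_, ?_, map_mono hPN⟩,
    ?_, ?_, ?_, ?_⟩
  · rw [hE]; exact xe hQ (Q.equivMapOfInjective _ inj)
  · rw [hE, cm, cQ]
  · rw [hE, cmap]; exact map_mono h2c
  · rw [hE]; exact map_mono hQN
  · exact (normal_subgroupOf_iff_le_normalizer (map_subtype_le N)).1 (by rw [hsub]; infer_instance)
  · rw [hE, cm, cm, cN]
  · have hn : ((N.map (centralizer ({t} : Set G)).subtype).subgroupOf (centralizer ({t} : Set G))).Normal := by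
      rw [hsub]; infer_instance
    exact ⟨hn, ⟨(QuotientGroup.quotientMulEquivOfEq hsub).trans e⟩⟩
  · rw [cm, cP]
  · have h1 : twoCoreOfCentralizer t ⊓ centralizer ((P.map (centralizer ({t} : Set G)).subtype : Subgroup G) : Set G)
        = (Q ⊓ centralizer (P : Set (centralizer ({t} : Set G)))).map (centralizer ({t} : Set G)).subtype := by
      rw [map_inf _ _ _ inj, ← cmap, hE, ← inf_assoc, inf_eq_left.2 (map_subtype_le Q)]
    rw [h1]
    have h2 : zpowers t ≤ (Q ⊓ centralizer (P : Set (centralizer ({t} : Set G)))).map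
        (centralizer ({t} : Set G)).subtype :=
      zpowers_le.2 (mem_map.2 ⟨⟨t, tC⟩, mem_inf.2 ⟨h2c (tc _), tc _⟩, rfl⟩)
    refine (eq_of_le_of_card_ge h2 ?_).symm
    rw [cm, cF, Nat.card_zpowers, ht]
  · intro h
    rw [cmap] at h
    refine hne (le_antisymm (fun c hc' => ?_) (centralizer_le_normalizer _))
    have h2 : (c : G) ∈ (centralizer (P : Set (centralizer ({t} : Set G)))).map (centralizer ({t} : Set G)).subtype := by
      rw [← h]
      exact ⟨c.2, le_normalizer_map _ ⟨c, hc', rfl⟩⟩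
    obtain ⟨d, hd, hdc⟩ := h2
    exact (inj hdc : d = c) ▸ hd
  · rw [cmap, ← map_commutator]; exact map_mono hPc

end H5J4
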