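import Cfsg.Agent.H5.J4t
import Cfsg.Agent.H16.Gq2
import Cfsg.Agent.H1.F22
import Cfsg.Agent.H29.M22Out
import Cfsg.Agent.S1265
import Cfsg.Prelude.Def_MonsterType

set_option autoImplicit false
open Subgroup Cfsg

namespace H5J4

theorem s22 : IsSimpleGroup ↥Spor.M22 :=
  haveI := H27.simple_H22; H27.m22Equiv.symm.isSimpleGroup

theorem na22 : ¬ IsMulCommutative ↥Spor.M22 :=
  haveI := s22; H16.Gq2.hna_of_card (by rw [H29.card_M22]; norm_num)

theorem hA22 : Nat.card (MulAut ↥Spor.M22) = 2 * Nat.card ↥Spor.M22 :=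
  haveI := s22; H16.Gq2.hA_of_out na22 H29.m22_out

theorem jft {G : Type*} [Group G] [Finite G]
    (t : G) (ht : orderOf t = 2) (Q N M : Subgroup (centralizer ({t} : Set G))) [Q.Normal]
    [N.Normal] (hQN : Q ≤ N) (hQ : IsExtraspecial 2 Q) (cQ : Nat.card Q = 2 ^ 13)
    (cN : Nat.card N = 3 * Nat.card Q)
    (h2c : centralizer (Q : Set (centralizer ({t} : Set G))) ≤ Q)
    (e : centralizer ({t} : Set G) ⧸ N ≃* MulAut ↥Spor.M22)
    (hc : ⁅M, N⁆ ≤ Q) (hp : N ≤ ⁅M, M⁆ ⊔ Q) : IsOfJankoFourTypeAt t :=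
  haveI := s22
  jft0 na22 (by rw [hA22, H29.card_M22]) H1.F22.f22 t ht Q N M hQN hQ cQ cN h2c e hc hp

theorem jft1670 {G : Type*} [Group G] [Finite G] (t : G) (ht : orderOf t = 2)
    (Q N M : Subgroup (centralizer ({t} : Set G))) [Q.Normal] [N.Normal] [M.Normal]
    (hQN : Q ≤ N) (hNM : N ≤ M) (hM : M.index = 2) (hQ : IsExtraspecial 2 Q)
    (hcard : Nat.card Q = 2 ^ 13) (hN : Nat.card N = 3 * Nat.card Q) (hcent : ⁅M, N⁆ ≤ Q)
    (hperf : M ≤ ⁅M, M⁆ ⊔ Q) (h2c : centralizer (Q : Set (centralizer ({t} : Set G))) ≤ Q)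
    (hout : ∀ c : centralizer ({t} : Set G), (∀ m ∈ M, c * m * c⁻¹ * m⁻¹ ∈ N) → c ∈ M)
    (hM22 : Spor.IsoM22 (M ⧸ N.subgroupOf M)) : IsOfJankoFourTypeAt t := by
  haveI := s22
  obtain ⟨e⟩ := H16.Gq.bq na22 hA22 N M hNM hM hout hM22
  exact jft t ht Q N M hQN hQ hcard hN h2c e hcent (hNM.trans hperf)

theorem jft5585 {G : Type*} [Group G] [Finite G] (τ : G)
    (Q N : Subgroup ↥(centralizer ({τ} : Set G))) [Q.Normal] [N.Normal]
    (hS : IsExtraspecialCentralizerSetting τ Q 6) (hQN : Q ≤ N)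
    (hN3 : Nat.card ↥N = 3 * Nat.card ↥Q)
    (hns : ∀ K : Subgroup ↥(centralizer ({τ} : Set G)), K ⊓ N = Q → K ⊔ N = ⊤ → False)
    (hAut : Nonempty (↥(centralizer ({τ} : Set G)) ⧸ N ≃* MulAut ↥Spor.M22)) :
    IsOfJankoFourTypeAt τ := by
  haveI := s22
  obtain ⟨e⟩ := hAut
  obtain ⟨M, hc, hp⟩ := H16.Gq.gq na22 hA22 Q N hQN hN3 hns e
  refine jft τ hS.1 Q N M hQN hS.2.2.1 hS.2.2.2.1 hN3 ?_ e hc hp
  have h := Cfsg.Agent.S1265.result (G := centralizer ({τ} : Set G))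
  rwa [hS.2.1] at h

/-- A group with an extraspecial subgroup of a subgroup is not commutative. -/
theorem na_of_xs {G : Type*} [Group G] {C : Subgroup G} (Q : Subgroup C)
    (hQ : IsExtraspecial 2 Q) (hcard : Nat.card Q = 2 ^ 13) : ¬ IsMulCommutative G := fun h => by
  have h1 : center Q = ⊤ := eq_top_iff.2 fun a _ => mem_center_iff.2 fun b =>
    Subtype.ext (Subtype.ext (h.1.1 _ _))
  have h2 := hQ.2
  rw [h1, card_top, hcard] at h2
  norm_num at h2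

end H5J4
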